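import Cfsg.Prelude.Def_Transfer
import Cfsg.Agent.Lib.PGroups.Extraspecial
import Mathlib.GroupTheory.SpecificGroups.Cyclic

/-!
Central decompositions of extraspecial groups and the uniqueness of their isomorphism types.
-/

set_option autoImplicit false

namespace CfsgLib.Transfer

open Subgroup
open scoped commutatorElement

universe u v w

/-- A group whose derived subgroup, `p`-th powers and centre lie in a central subgroup
`⟨z⟩` of order `p`. -/
def SympLike (p : ℕ) {E : Type u} [Group E] (z : E) : Prop :=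
  z ∈ center E ∧ orderOf z = p ∧ (∀ g h : E, ⁅g, h⁆ ∈ zpowers z) ∧
    (∀ g : E, g ^ p ∈ zpowers z) ∧ center E ≤ zpowers z

section Pair

variable {E : Type u} [Group E] {p : ℕ} {z x y : E}

/-- The centraliser of a pair of elements. -/
def pairC (x y : E) : Subgroup E := centralizer ({x, y} : Set E)

theorem mem_pairC {g : E} : g ∈ pairC x y ↔ x * g = g * x ∧ y * g = g * y := by
  simp [pairC, mem_centralizer_iff]

theorem zpow_swap (hz : z ∈ center E) (hxy : ⁅x, y⁆ = z) (a j : ℤ) :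
    x ^ a * y ^ j = z ^ (a * j) * y ^ j * x ^ a := by
  have h1 : x * y * x⁻¹ = z * y := by rw [← hxy, commutatorElement_def]; group
  have hc : ∀ g : E, Commute z g := fun g => (mem_center_iff.mp hz g).symm
  have h2 : x * y ^ j * x⁻¹ = z ^ j * y ^ j := by
    rw [← (hc y).mul_zpow, ← h1, conj_zpow]
  have h3 : y ^ j * x * (y ^ j)⁻¹ = z ^ (-j) * x := by
    have h4 : x * y ^ j = z ^ j * y ^ j * x := by
      rw [← mul_inv_eq_iff_eq_mul]; exact h2
    rw [mul_inv_eq_iff_eq_mul, mul_assoc, h4]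
    simp [mul_assoc, zpow_neg]
  have h5 : y ^ j * x ^ a * (y ^ j)⁻¹ = z ^ (-j * a) * x ^ a := by
    rw [← conj_zpow, h3, ((hc x).zpow_left _).mul_zpow, ← zpow_mul]
  rw [mul_inv_eq_iff_eq_mul] at h5
  rw [mul_assoc, h5, mul_assoc, ← mul_assoc (z ^ (a * j)), ← zpow_add]
  simp [mul_comm]

theorem eq_mul_pairC (hz : z ∈ center E) (hall : ∀ g h : E, ⁅g, h⁆ ∈ zpowers z)
    (hxy : ⁅x, y⁆ = z) (g : E) :
    ∃ i j : ℤ, ∃ c ∈ pairC x y, g = x ^ i * y ^ j * c := by
  obtain ⟨a, ha⟩ := hall g x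
  obtain ⟨b, hb⟩ := hall g y
  have hc : ∀ g : E, Commute z g := fun g => (mem_center_iff.mp hz g).symm
  have ha' : g * x = z ^ a * x * g := by
    rw [show z ^ a = ⁅g, x⁆ from ha, commutatorElement_def]; group
  have hb' : g * y = z ^ b * y * g := by
    rw [show z ^ b = ⁅g, y⁆ from hb, commutatorElement_def]; group
  refine ⟨b, -a, (x ^ b * y ^ (-a))⁻¹ * g, mem_pairC.mpr ⟨?_, ?_⟩, by group⟩
  · set t := x ^ b * y ^ (-a)
    have ht : t * x = z ^ a * x * t := by
      have h6 := zpow_swap hz hxy 1 (-a)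
      rw [zpow_one, one_mul] at h6
      calc t * x = x ^ b * (z ^ a * (z ^ (-a) * y ^ (-a) * x)) := by
            simp only [t]; group
        _ = x ^ b * (z ^ a * (x * y ^ (-a))) := by rw [h6]
        _ = z ^ a * x ^ b * (x * y ^ (-a)) := by
            rw [← mul_assoc, ((hc (x ^ b)).zpow_left a).eq]
        _ = z ^ a * x * t := by simp only [t]; group
    calc x * (t⁻¹ * g) = t⁻¹ * (t * x) * t⁻¹ * g := by group
      _ = t⁻¹ * (z ^ a * x) * g := by rw [ht]; group
      _ = t⁻¹ * (g * x) := by rw [ha']; group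
      _ = t⁻¹ * g * x := by group
  · set t := x ^ b * y ^ (-a)
    have ht : t * y = z ^ b * y * t := by
      have h6 := zpow_swap hz hxy b 1
      rw [zpow_one, mul_one] at h6
      calc t * y = (x ^ b * y) * y ^ (-a) := by simp only [t]; group
        _ = z ^ b * y * x ^ b * y ^ (-a) := by rw [h6]
        _ = z ^ b * y * t := by simp only [t]; group
    calc y * (t⁻¹ * g) = t⁻¹ * (t * y) * t⁻¹ * g := by group
      _ = t⁻¹ * (z ^ b * y) * g := by rw [ht]; group
      _ = t⁻¹ * (g * y) := by rw [hb']; group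
      _ = t⁻¹ * g * y := by group

theorem z_mem_pairC (hz : z ∈ center E) : z ∈ pairC x y :=
  mem_pairC.mpr ⟨mem_center_iff.mp hz x, mem_center_iff.mp hz y⟩

theorem sympLike_pairC (h : SympLike p z) (hxy : ⁅x, y⁆ = z) :
    SympLike p (⟨z, z_mem_pairC h.1⟩ : pairC x y) := by
  obtain ⟨hz, ho, hc, hp, hZ⟩ := h
  have hlift : ∀ w : pairC x y, (w : E) ∈ zpowers z →
      w ∈ zpowers (⟨z, z_mem_pairC hz⟩ : pairC x y) := by
    rintro w ⟨i, hi⟩
    refine ⟨i, Subtype.ext ?_⟩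
    simpa using hi
  refine ⟨mem_center_iff.mpr fun g => Subtype.ext (mem_center_iff.mp hz _), by rwa [orderOf_mk],
    fun g k => hlift _ (hc g k), fun g => hlift _ (hp g), fun w hw => hlift w (hZ ?_)⟩
  refine mem_center_iff.mpr fun g => ?_
  obtain ⟨i, j, c, hcC, rfl⟩ := eq_mul_pairC hz hc hxy g
  have hwC := mem_pairC.mp w.2
  have h1 : Commute (c : E) w := congrArg Subtype.val (mem_center_iff.mp hw ⟨c, hcC⟩)
  exact ((Commute.zpow_left hwC.1 i).mul_left (Commute.zpow_left hwC.2 j)).mul_left h1 |>.eq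

theorem card_eq_sq_mul_pairC [Finite E] [hp : Fact p.Prime] (h : SympLike p z)
    (hxy : ⁅x, y⁆ = z) : Nat.card E = p ^ 2 * Nat.card (pairC x y) := by
  obtain ⟨hz, ho, hall, hpw, hZ⟩ := h
  have hc : ∀ g : E, Commute z g := fun g => (mem_center_iff.mp hz g).symm
  have hcen : ∀ g k : E, ⁅g, k⁆ ∈ center E := fun g k => zpowers_le.mpr hz (hall g k)
  let f : E →* zpowers z × zpowers z :=
    MonoidHom.mk' (fun g => (⟨⁅g, x⁆, hall g x⟩, ⟨⁅g, y⁆, hall g y⟩)) fun a b => by
      refine Prod.ext (Subtype.ext ?_) (Subtype.ext ?_)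
      · exact CfsgLib.PGroups.commutatorElement_mul_left (hcen b x)
      · exact CfsgLib.PGroups.commutatorElement_mul_left (hcen b y)
  have hker : f.ker = pairC x y := by
    ext g
    rw [MonoidHom.mem_ker, mem_pairC]
    constructor
    · intro h1
      exact ⟨(commutatorElement_eq_one_iff_mul_comm.mp (congrArg (fun t => (t.1 : E)) h1)).symm,
        (commutatorElement_eq_one_iff_mul_comm.mp (congrArg (fun t => (t.2 : E)) h1)).symm⟩
    · intro h1
      exact Prod.ext (Subtype.ext (commutatorElement_eq_one_iff_mul_comm.mpr h1.1.symm))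
        (Subtype.ext (commutatorElement_eq_one_iff_mul_comm.mpr h1.2.symm))
  have hsurj : Function.Surjective f := by
    rintro ⟨⟨_, a, rfl⟩, ⟨_, b, rfl⟩⟩
    refine ⟨x ^ b * y ^ (-a), Prod.ext (Subtype.ext ?_) (Subtype.ext ?_)⟩
    · change ⁅x ^ b * y ^ (-a), x⁆ = z ^ a
      have h6 := zpow_swap hz hxy 1 (-a)
      rw [zpow_one, one_mul] at h6
      have h7 : y ^ (-a) * x = z ^ a * (x * y ^ (-a)) := by rw [h6]; group
      rw [commutatorElement_def, mul_inv_eq_iff_eq_mul, mul_inv_eq_iff_eq_mul]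
      calc x ^ b * y ^ (-a) * x = x ^ b * (z ^ a * (x * y ^ (-a))) := by rw [mul_assoc, h7]
        _ = z ^ a * x ^ b * (x * y ^ (-a)) := by rw [← mul_assoc, ((hc (x ^ b)).zpow_left a).eq]
        _ = _ := by group
    · change ⁅x ^ b * y ^ (-a), y⁆ = z ^ b
      have h6 := zpow_swap hz hxy b 1
      rw [zpow_one, mul_one] at h6
      rw [commutatorElement_def, mul_inv_eq_iff_eq_mul, mul_inv_eq_iff_eq_mul]
      calc x ^ b * y ^ (-a) * y = (x ^ b * y) * y ^ (-a) := by group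
        _ = z ^ b * y * x ^ b * y ^ (-a) := by rw [h6]
        _ = _ := by group
  have h1 := f.ker.card_mul_index
  rw [index_ker, MonoidHom.range_eq_top.mpr hsurj, Subgroup.card_top, Nat.card_prod,
    Nat.card_zpowers, ho, hker] at h1
  rw [← h1, sq, mul_comm]

/-- A nonabelian `SympLike` group has a pair with commutator `z`. -/
theorem exists_commutator_eq (hp : p.Prime) (h : SympLike p z) {x : E} (hx : x ∉ center E) :
    ∃ y : E, ⁅x, y⁆ = z := by
  obtain ⟨hz, ho, hall, -, -⟩ := h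
  obtain ⟨y, hy⟩ := not_forall.mp (mt mem_center_iff.mpr hx)
  obtain ⟨a, ha⟩ := hall x y
  have ha0 : ¬ (p : ℤ) ∣ a := by
    intro hd
    refine hy (Eq.symm (commutatorElement_eq_one_iff_mul_comm.mp ?_))
    rw [← show z ^ a = ⁅x, y⁆ from ha]
    rwa [← orderOf_dvd_iff_zpow_eq_one, ho]
  obtain ⟨u, v, huv⟩ := (Nat.prime_iff_prime_int.mp hp).coprime_iff_not_dvd.mpr ha0
  refine ⟨y ^ v, ?_⟩
  have hc : Commute z y := (mem_center_iff.mp hz y).symm
  have h1 : x * y * x⁻¹ = z ^ a * y := by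
    rw [show z ^ a = ⁅x, y⁆ from ha, commutatorElement_def]; group
  rw [commutatorElement_def, ← conj_zpow, h1, (hc.zpow_left a).mul_zpow, mul_inv_cancel_right,
    ← zpow_mul]
  have : a * v = 1 - u * p := by rw [← huv]; ring
  rw [this, zpow_sub, zpow_one, mul_comm u, zpow_mul, zpow_natCast, ← ho, pow_orderOf_eq_one,
    one_zpow, inv_one, mul_one]

theorem card_of_abelian [Finite E] (h : SympLike p z) (hab : center E = ⊤) :
    Nat.card E = p := by
  have : zpowers z = (⊤ : Subgroup E) := top_le_iff.mp (hab ▸ h.2.2.2.2)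
  rw [← card_top (G := E), ← this, Nat.card_zpowers, h.2.1]

theorem exists_card_eq_pow [Finite E] [hp : Fact p.Prime] (h : SympLike p z) :
    ∃ n : ℕ, Nat.card E = p ^ (2 * n + 1) := by
  induction hn : Nat.card E using Nat.strong_induction_on generalizing E with
  | _ m ih =>
    by_cases hab : center E = ⊤
    · exact ⟨0, by rw [← hn, card_of_abelian h hab]; simp⟩
    obtain ⟨x, -, hx⟩ := SetLike.exists_of_lt (lt_top_iff_ne_top.mpr hab)
    obtain ⟨y, hxy⟩ := exists_commutator_eq hp.out h hx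
    have hc := card_eq_sq_mul_pairC h hxy
    have hlt : Nat.card (pairC x y) < m := by
      rw [← hn, hc]
      exact lt_mul_left Nat.card_pos (by nlinarith [hp.out.two_le])
    obtain ⟨n, hcn⟩ := ih _ hlt (sympLike_pairC h hxy) rfl
    exact ⟨n + 1, by rw [← hn, hc, hcn, ← pow_add]; congr 1; omega⟩

end Pair

section Glue

variable {E : Type u} {F : Type v} [Group E] [Group F] [Finite E] [Finite F] {p : ℕ}
  [hp : Fact p.Prime]

/-- The graph relation used to glue an isomorphism along a decomposition. -/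
def GlueRel (x y : E) (x' y' : F) (ψ : pairC x y →* pairC x' y') (g : E) (g' : F) : Prop :=
  ∃ i j : ℤ, ∃ c : pairC x y, g = x ^ i * y ^ j * c ∧ g' = x' ^ i * y' ^ j * ψ c

omit [Finite E] [Finite F] hp in
theorem pairC_commute {x y : E} (c : pairC x y) (i j : ℤ) :
    Commute (c : E) (x ^ i * y ^ j) :=
  (Commute.zpow_right ((mem_pairC.mp c.2).1.symm : Commute (c : E) x) i).mul_right
    (Commute.zpow_right ((mem_pairC.mp c.2).2.symm : Commute (c : E) y) j)

omit [Finite E] [Finite F] hp in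
theorem glue_form_mul {x y z : E} (hz : z ∈ center E) (hxy : ⁅x, y⁆ = z) (i j a b : ℤ)
    (c d : pairC x y) :
    x ^ i * y ^ j * (c : E) * (x ^ a * y ^ b * d) =
      x ^ (i + a) * y ^ (j + b) * ((⟨z, z_mem_pairC hz⟩ : pairC x y) ^ (-(a * j)) * c * d : pairC x y) := by
  have hzc : ∀ (m : ℤ) (g : E), Commute (z ^ m) g := fun m g =>
    (show Commute z g from (mem_center_iff.mp hz g).symm).zpow_left m
  have h1 : y ^ j * x ^ a = z ^ (-(a * j)) * (x ^ a * y ^ j) := by
    rw [zpow_swap hz hxy a j]; group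
  calc x ^ i * y ^ j * (c : E) * (x ^ a * y ^ b * d)
      = x ^ i * y ^ j * ((c : E) * (x ^ a * y ^ b)) * d := by group
    _ = x ^ i * y ^ j * ((x ^ a * y ^ b) * (c : E)) * d := by rw [(pairC_commute c a b).eq]
    _ = x ^ i * (y ^ j * x ^ a) * y ^ b * c * d := by group
    _ = x ^ i * (z ^ (-(a * j)) * (x ^ a * y ^ j)) * y ^ b * c * d := by rw [h1]
    _ = z ^ (-(a * j)) * (x ^ i * x ^ a * (y ^ j * y ^ b)) * c * d := by
      rw [← mul_assoc (x ^ i), ← (hzc _ (x ^ i)).eq]; group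
    _ = (x ^ i * x ^ a * (y ^ j * y ^ b)) * (z ^ (-(a * j)) * c * d) := by
      rw [(hzc _ _).eq]; group
    _ = _ := by simp [zpow_add, mul_assoc]

omit [Finite E] [Finite F] in
theorem glueRel_one {z x y : E} {z' x' y' : F} (h : SympLike p z) (h' : SympLike p z')
    (hxy : ⁅x, y⁆ = z) (hxy' : ⁅x', y'⁆ = z')
    {s t : ℤ} (hx : x ^ p = z ^ s) (hy : y ^ p = z ^ t) (hx' : x' ^ p = z' ^ s)
    (hy' : y' ^ p = z' ^ t) (ψ : pairC x y →* pairC x' y')
    (hψ : ψ ⟨z, z_mem_pairC h.1⟩ = ⟨z', z_mem_pairC h'.1⟩) {g' : F}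
    (hr : GlueRel x y x' y' ψ 1 g') : g' = 1 := by
  obtain ⟨i, j, c, h1, rfl⟩ := hr
  have hcc := mem_pairC.mp c.2
  have hce : (c : E) = (x ^ i * y ^ j)⁻¹ := eq_inv_of_mul_eq_one_right h1.symm
  have hzc : ∀ g : E, Commute z g := fun g => (mem_center_iff.mp h.1 g).symm
  have hdvd : (p : ℤ) ∣ i ∧ (p : ℤ) ∣ j := by
    have hcx : Commute (x ^ i * y ^ j) x := by
      have := (show Commute (c : E) x from hcc.1.symm).inv_left
      rwa [hce, inv_inv] at this
    have hcy : Commute (x ^ i * y ^ j) y := by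
      have := (show Commute (c : E) y from hcc.2.symm).inv_left
      rwa [hce, inv_inv] at this
    constructor
    · have h6 := zpow_swap h.1 hxy i 1
      rw [zpow_one, mul_one] at h6
      have : z ^ i * (y * (x ^ i * y ^ j)) = y * (x ^ i * y ^ j) :=
        calc _ = (z ^ i * y * x ^ i) * y ^ j := by group
          _ = (x ^ i * y) * y ^ j := by rw [h6]
          _ = (x ^ i * y ^ j) * y := by group
          _ = _ := hcy.eq
      rw [← h.2.1, orderOf_dvd_iff_zpow_eq_one]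
      exact mul_eq_right.mp this
    · have h6 := zpow_swap h.1 hxy 1 j
      rw [zpow_one, one_mul] at h6
      have : z ^ j * (x ^ i * y ^ j * x) = x ^ i * y ^ j * x :=
        calc _ = (z ^ j * x ^ i) * y ^ j * x := by group
          _ = (x ^ i * z ^ j) * y ^ j * x := by rw [((hzc _).zpow_left j).eq]
          _ = x ^ i * (z ^ j * y ^ j * x) := by group
          _ = x ^ i * (x * y ^ j) := by rw [h6]
          _ = x * (x ^ i * y ^ j) := by group
          _ = _ := hcx.symm.eq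
      rw [← h.2.1, orderOf_dvd_iff_zpow_eq_one]
      exact mul_eq_right.mp this
  obtain ⟨⟨i', rfl⟩, ⟨j', rfl⟩⟩ := hdvd
  have e1 : x ^ ((p : ℤ) * i') * y ^ ((p : ℤ) * j') = z ^ (s * i' + t * j') := by
    rw [zpow_mul, zpow_mul, zpow_natCast, zpow_natCast, hx, hy, ← zpow_mul, ← zpow_mul, zpow_add]
  have e2 : x' ^ ((p : ℤ) * i') * y' ^ ((p : ℤ) * j') = z' ^ (s * i' + t * j') := by
    rw [zpow_mul, zpow_mul, zpow_natCast, zpow_natCast, hx', hy', ← zpow_mul, ← zpow_mul, zpow_add]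
  have hc' : c = (⟨z, z_mem_pairC h.1⟩ : pairC x y) ^ (-(s * i' + t * j')) := by
    refine Subtype.ext ?_
    rw [hce, e1, coe_zpow, zpow_neg]
  rw [e2, hc', map_zpow, hψ, coe_zpow, zpow_neg, mul_inv_cancel]

/-- Glue an isomorphism of centralisers of matching pairs to an isomorphism of the groups. -/
theorem exists_mulEquiv_of_pairs {z x y : E} {z' x' y' : F} (h : SympLike p z)
    (h' : SympLike p z') (hxy : ⁅x, y⁆ = z) (hxy' : ⁅x', y'⁆ = z')
    {s t : ℤ} (hx : x ^ p = z ^ s) (hy : y ^ p = z ^ t) (hx' : x' ^ p = z' ^ s)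
    (hy' : y' ^ p = z' ^ t) (ψ : pairC x y ≃* pairC x' y')
    (hψ : ψ ⟨z, z_mem_pairC h.1⟩ = ⟨z', z_mem_pairC h'.1⟩) :
    ∃ f : E ≃* F, f z = z' := by
  set R := GlueRel x y x' y' ψ.toMonoidHom with hR
  have htot : ∀ g, ∃ g', R g g' := fun g => by
    obtain ⟨i, j, c, hc, hg⟩ := eq_mul_pairC h.1 h.2.2.1 hxy g
    exact ⟨_, i, j, ⟨c, hc⟩, hg, rfl⟩
  have hmul : ∀ {g g' k k'}, R g g' → R k k' → R (g * k) (g' * k') := by
    rintro g g' k k' ⟨i, j, c, rfl, rfl⟩ ⟨a, b, d, rfl, rfl⟩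
    refine ⟨i + a, j + b, _, glue_form_mul h.1 hxy i j a b c d, ?_⟩
    rw [glue_form_mul h'.1 hxy' i j a b]
    simp [hψ]
  have huniq : ∀ {g g1 g2}, R g g1 → R g g2 → g1 = g2 := by
    intro g g1 g2 h1 h2
    obtain ⟨k, hk⟩ := htot g⁻¹
    have e1 := glueRel_one h h' hxy hxy' hx hy hx' hy' ψ.toMonoidHom hψ
      (mul_inv_cancel g ▸ hmul h1 hk)
    have e2 := glueRel_one h h' hxy hxy' hx hy hx' hy' ψ.toMonoidHom hψ
      (mul_inv_cancel g ▸ hmul h2 hk)
    exact mul_right_cancel (e1.trans e2.symm)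
  choose f hf using htot
  let φ : E →* F := MonoidHom.mk' f fun a b => huniq (hf (a * b)) (hmul (hf a) (hf b))
  have hinj : Function.Injective φ := by
    refine (injective_iff_map_eq_one φ).mpr fun g hg => ?_
    obtain ⟨i, j, c, hgc, hgc'⟩ := hf g
    refine glueRel_one h' h hxy' hxy hx' hy' hx hy ψ.symm.toMonoidHom
      (by rw [← hψ]; exact ψ.symm_apply_apply _) ⟨i, j, ψ c, ?_, ?_⟩
    · exact hg.symm.trans hgc'
    · rw [hgc]; simp
  have hsurj : Function.Surjective φ := by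
    intro g'
    obtain ⟨i, j, c, hc, rfl⟩ := eq_mul_pairC h'.1 h'.2.2.1 hxy' g'
    refine ⟨x ^ i * y ^ j * (ψ.symm ⟨c, hc⟩ : pairC x y), huniq (hf _) ⟨i, j, _, rfl, ?_⟩⟩
    simp
  refine ⟨MulEquiv.ofBijective φ ⟨hinj, hsurj⟩, huniq (hf z) ⟨0, 0, ⟨z, z_mem_pairC h.1⟩, by simp, ?_⟩⟩
  simp [hψ]

omit hp in
theorem exists_mulEquiv_of_cyclic {z : E} {z' : F} (h : SympLike p z) (h' : SympLike p z')
    (hab : center E = ⊤) (hab' : center F = ⊤) : ∃ f : E ≃* F, f z = z' := by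
  have hg : ∀ g : E, g ∈ zpowers z := fun g => h.2.2.2.2 (hab ▸ mem_top g)
  have hg' : ∀ g : F, g ∈ zpowers z' := fun g => h'.2.2.2.2 (hab' ▸ mem_top g)
  exact ⟨mulEquivOfOrderOfEq hg hg' (h.2.1.trans h'.2.1.symm),
    mulEquivOfOrderOfEq_apply_gen hg hg' _⟩

omit [Finite F] in
theorem center_ne_top_of_card {z : E} (h : SympLike p z) {z' : F} (h' : SympLike p z')
    [Finite F] (hc : Nat.card E = Nat.card F) (hab : center E ≠ ⊤) : center F ≠ ⊤ := by
  intro hab'
  obtain ⟨x, -, hx⟩ := SetLike.exists_of_lt (lt_top_iff_ne_top.mpr hab)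
  obtain ⟨y, hxy⟩ := exists_commutator_eq hp.out h hx
  have h1 := card_eq_sq_mul_pairC h hxy
  rw [hc, card_of_abelian h' hab', sq, mul_assoc] at h1
  have h2 : 1 ≤ Nat.card (pairC x y) := Nat.card_pos
  have h3 : p * 1 = p * (p * Nat.card (pairC x y)) := by rw [mul_one]; exact h1
  have h4 := Nat.eq_of_mul_eq_mul_left hp.out.pos h3
  have h5 := Nat.le_mul_of_pos_right p h2
  have := hp.out.two_le
  omega

end Glue

/-- Uniqueness for groups of exponent `p`. -/
theorem exists_mulEquiv_of_exponent {p : ℕ} [hp : Fact p.Prime] :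
    ∀ (n : ℕ) {E : Type u} {F : Type v} [Group E] [Group F] [Finite E] [Finite F] {z : E} {z' : F},
      Nat.card E = n → Nat.card F = n → SympLike p z → SympLike p z' →
      (∀ g : E, g ^ p = 1) → (∀ g : F, g ^ p = 1) → ∃ f : E ≃* F, f z = z' := by
  intro n
  induction n using Nat.strong_induction_on with
  | _ n ih =>
    intro E F _ _ _ _ z z' hn hn' h h' he he'
    by_cases hab : center E = ⊤
    · by_cases hab' : center F = ⊤
      · exact exists_mulEquiv_of_cyclic h h' hab hab'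
      · exact absurd hab (center_ne_top_of_card h' h (hn'.trans hn.symm) hab')
    have hab' := center_ne_top_of_card h h' (hn.trans hn'.symm) hab
    obtain ⟨x, -, hx⟩ := SetLike.exists_of_lt (lt_top_iff_ne_top.mpr hab)
    obtain ⟨y, hxy⟩ := exists_commutator_eq hp.out h hx
    obtain ⟨x', -, hx'⟩ := SetLike.exists_of_lt (lt_top_iff_ne_top.mpr hab')
    obtain ⟨y', hxy'⟩ := exists_commutator_eq hp.out h' hx'
    have h1 := card_eq_sq_mul_pairC h hxy
    have h2 := card_eq_sq_mul_pairC h' hxy'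
    have hlt : Nat.card (pairC x y) < n := by
      rw [← hn, h1]; exact lt_mul_left Nat.card_pos (by nlinarith [hp.out.two_le])
    have hcC : Nat.card (pairC x' y') = Nat.card (pairC x y) :=
      Nat.eq_of_mul_eq_mul_left (pow_pos hp.out.pos 2) (by rw [← h1, ← h2, hn, hn'])
    obtain ⟨ψ, hψ⟩ := ih _ hlt rfl hcC (sympLike_pairC h hxy) (sympLike_pairC h' hxy')
      (fun g => Subtype.ext (he g)) (fun g => Subtype.ext (he' g))
    exact exists_mulEquiv_of_pairs h h' hxy hxy' (s := 0) (t := 0) (by rw [he, zpow_zero])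
      (by rw [he, zpow_zero]) (by rw [he', zpow_zero]) (by rw [he', zpow_zero]) ψ hψ

section Two

variable {E : Type u} [Group E] {z : E}

theorem sq_eq_one_or_eq [Finite E] (h : SympLike 2 z) (g : E) : g ^ 2 = 1 ∨ g ^ 2 = z := by
  obtain ⟨i, hi⟩ := h.2.2.2.1 g
  rcases Int.emod_two_eq_zero_or_one i with h0 | h0
  all_goals
    have hz2 : z ^ (2 : ℤ) = 1 := by
      rw [show (2 : ℤ) = ((2 : ℕ) : ℤ) from rfl, zpow_natCast, ← h.2.1, pow_orderOf_eq_one]
    have : g ^ 2 = z ^ (i % 2) := by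
      rw [← show z ^ i = g ^ 2 from hi]
      conv_lhs => rw [← Int.emod_add_mul_ediv i 2, zpow_add, zpow_mul, hz2, one_zpow, mul_one]
  · exact Or.inl (by rw [this, h0, zpow_zero])
  · exact Or.inr (by rw [this, h0, zpow_one])

theorem z_sq (h : SympLike 2 z) : z * z = 1 := by
  rw [← sq, ← h.2.1, pow_orderOf_eq_one]

/-- A pair of dihedral type. -/
theorem exists_dihedral_pair [Finite E] (h : SympLike 2 z) {x : E} (hx : x ∉ center E)
    (hx2 : x ^ 2 = 1) : ∃ y : E, ⁅x, y⁆ = z ∧ y ^ 2 = 1 := by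
  obtain ⟨y, hxy⟩ := exists_commutator_eq Nat.prime_two h hx
  rcases sq_eq_one_or_eq h y with h1 | h1
  · exact ⟨y, hxy, h1⟩
  refine ⟨x * y, ?_, ?_⟩
  · rw [CfsgLib.PGroups.commutatorElement_mul_right (hxy ▸ h.1), hxy, commutatorElement_self,
      one_mul]
  · have hyx : y * x = z * x * y := by
      have h3 : x * y = z * (y * x) := by rw [← hxy, commutatorElement_def]; group
      calc y * x = (z * z) * (y * x) := by rw [z_sq h, one_mul]
        _ = z * (x * y) := by rw [h3, mul_assoc]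
        _ = z * x * y := by rw [mul_assoc]
    have hzx : x * z = z * x := mem_center_iff.mp h.1 x
    calc (x * y) ^ 2 = x * (y * x) * y := by rw [sq]; group
      _ = x * z * x * y * y := by rw [hyx]; group
      _ = z * (x * x) * (y * y) := by rw [hzx]; group
      _ = 1 := by rw [← sq x, hx2, ← sq y, h1, mul_one, z_sq h]

/-- In order above `8` there is a noncentral involution. -/
theorem exists_noncentral_involution [Finite E] (h : SympLike 2 z) (h8 : 8 < Nat.card E) :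
    ∃ x : E, x ∉ center E ∧ x ^ 2 = 1 := by
  have : Fact (Nat.Prime 2) := ⟨Nat.prime_two⟩
  have hab : center E ≠ ⊤ := fun hab => by
    have := card_of_abelian h hab; omega
  obtain ⟨x, -, hx⟩ := SetLike.exists_of_lt (lt_top_iff_ne_top.mpr hab)
  obtain ⟨y, hxy⟩ := exists_commutator_eq Nat.prime_two h hx
  by_contra hno
  have hsq : ∀ g : E, g ∉ center E → g ^ 2 = z := fun g hg =>
    (sq_eq_one_or_eq h g).resolve_left fun h1 => hno ⟨g, hg, h1⟩
  have h1 := card_eq_sq_mul_pairC h hxy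
  have hC : center (pairC x y) ≠ ⊤ := fun hab => by
    have := card_of_abelian (sympLike_pairC h hxy) hab; omega
  obtain ⟨u, -, hu⟩ := SetLike.exists_of_lt (lt_top_iff_ne_top.mpr hC)
  have hu' : (u : E) ∉ center E := fun hc =>
    hu (mem_center_iff.mpr fun g => Subtype.ext (mem_center_iff.mp hc g))
  have hcu := mem_pairC.mp u.2
  refine hno ⟨x * (u : E), fun hc => ?_, ?_⟩
  · have e : ⁅x * (u : E), y⁆ = z := by
      rw [CfsgLib.PGroups.commutatorElement_mul_left (by
        rw [commutatorElement_eq_one_iff_mul_comm.mpr hcu.2.symm]; exact one_mem _),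
        commutatorElement_eq_one_iff_mul_comm.mpr hcu.2.symm, hxy, mul_one]
    rw [commutatorElement_eq_one_iff_mul_comm.mpr (mem_center_iff.mp hc y).symm] at e
    have := h.2.1
    rw [← e, orderOf_one] at this
    omega
  · rw [(show Commute x (u : E) from hcu.1).mul_pow, hsq x hx, hsq _ hu', z_sq h]

end Two

/-- Nonabelian groups of order at most `8` of the same type are isomorphic. -/
theorem exists_mulEquiv_small {E : Type u} {F : Type v} [Group E] [Group F] [Finite E] [Finite F]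
    {z : E} {z' : F} (h : SympLike 2 z) (h' : SympLike 2 z') (hc : Nat.card E = Nat.card F)
    (h8 : ¬ 8 < Nat.card E) (hab : center E ≠ ⊤)
    (htype : (∃ x : E, x ∉ center E ∧ x ^ 2 = 1) ↔ (∃ x : F, x ∉ center F ∧ x ^ 2 = 1)) :
    ∃ f : E ≃* F, f z = z' := by
  have : Fact (Nat.Prime 2) := ⟨Nat.prime_two⟩
  have hab' := center_ne_top_of_card h h' hc hab
  -- matching pairs
  obtain ⟨x, y, x', y', exy, exy', s, sx, sy, sx', sy'⟩ : ∃ (x y : E) (x' y' : F),
      ⁅x, y⁆ = z ∧ ⁅x', y'⁆ = z' ∧ ∃ s : ℤ,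
        x ^ 2 = z ^ s ∧ y ^ 2 = z ^ s ∧ x' ^ 2 = z' ^ s ∧ y' ^ 2 = z' ^ s := by
    by_cases hD : ∃ x : E, x ∉ center E ∧ x ^ 2 = 1
    · obtain ⟨x, hx, sx⟩ := hD
      obtain ⟨y, exy, sy⟩ := exists_dihedral_pair h hx sx
      obtain ⟨x', hx', sx'⟩ := htype.mp ⟨x, hx, sx⟩
      obtain ⟨y', exy', sy'⟩ := exists_dihedral_pair h' hx' sx'
      exact ⟨x, y, x', y', exy, exy', 0, by rw [sx, zpow_zero], by rw [sy, zpow_zero],
        by rw [sx', zpow_zero], by rw [sy', zpow_zero]⟩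
    · have hD' := mt htype.mpr hD
      obtain ⟨x, -, hx⟩ := SetLike.exists_of_lt (lt_top_iff_ne_top.mpr hab)
      obtain ⟨y, exy⟩ := exists_commutator_eq Nat.prime_two h hx
      obtain ⟨x', -, hx'⟩ := SetLike.exists_of_lt (lt_top_iff_ne_top.mpr hab')
      obtain ⟨y', exy'⟩ := exists_commutator_eq Nat.prime_two h' hx'
      have hy : y ∉ center E := fun hc => by
        have := commutatorElement_eq_one_iff_mul_comm.mpr (mem_center_iff.mp hc x)
        rw [exy] at this; rw [this] at h; simpa using h.2.1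
      have hy' : y' ∉ center F := fun hc => by
        have := commutatorElement_eq_one_iff_mul_comm.mpr (mem_center_iff.mp hc x')
        rw [exy'] at this; rw [this] at h'; simpa using h'.2.1
      refine ⟨x, y, x', y', exy, exy', 1, ?_, ?_, ?_, ?_⟩ <;> rw [zpow_one]
      · exact (sq_eq_one_or_eq h x).resolve_left fun e => hD ⟨x, hx, e⟩
      · exact (sq_eq_one_or_eq h y).resolve_left fun e => hD ⟨y, hy, e⟩
      · exact (sq_eq_one_or_eq h' x').resolve_left fun e => hD' ⟨x', hx', e⟩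
      · exact (sq_eq_one_or_eq h' y').resolve_left fun e => hD' ⟨y', hy', e⟩
  have q := card_eq_sq_mul_pairC h exy
  have q' := card_eq_sq_mul_pairC h' exy'
  have hCab : center (pairC x y) = ⊤ := by
    by_contra hne
    obtain ⟨a, -, ha⟩ := SetLike.exists_of_lt (lt_top_iff_ne_top.mpr hne)
    obtain ⟨b, hb⟩ := exists_commutator_eq Nat.prime_two (sympLike_pairC h exy) ha
    have := card_eq_sq_mul_pairC (sympLike_pairC h exy) hb
    have : 1 ≤ Nat.card (pairC a b) := Nat.card_pos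
    omega
  have hCab' : center (pairC x' y') = ⊤ := by
    by_contra hne
    obtain ⟨a, -, ha⟩ := SetLike.exists_of_lt (lt_top_iff_ne_top.mpr hne)
    obtain ⟨b, hb⟩ := exists_commutator_eq Nat.prime_two (sympLike_pairC h' exy') ha
    have := card_eq_sq_mul_pairC (sympLike_pairC h' exy') hb
    have : 1 ≤ Nat.card (pairC a b) := Nat.card_pos
    omega
  obtain ⟨ψ, hψ⟩ := exists_mulEquiv_of_cyclic (sympLike_pairC h exy) (sympLike_pairC h' exy') hCab hCab'
  exact exists_mulEquiv_of_pairs h h' exy exy' sx sy sx' sy' ψ hψ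

/-- At most two isomorphism types for `p = 2`. -/
theorem two_of_three : ∀ (n : ℕ) {E₁ : Type u} {E₂ : Type v} {E₃ : Type w} [Group E₁] [Group E₂]
    [Group E₃] [Finite E₁] [Finite E₂] [Finite E₃] {z₁ : E₁} {z₂ : E₂} {z₃ : E₃},
    SympLike 2 z₁ → SympLike 2 z₂ → SympLike 2 z₃ →
    Nat.card E₁ = n → Nat.card E₂ = n → Nat.card E₃ = n →
    (∃ f : E₁ ≃* E₂, f z₁ = z₂) ∨ (∃ f : E₂ ≃* E₃, f z₂ = z₃) ∨ (∃ f : E₁ ≃* E₃, f z₁ = z₃) := by
  have : Fact (Nat.Prime 2) := ⟨Nat.prime_two⟩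
  intro n
  induction n using Nat.strong_induction_on with
  | _ n ih =>
    intro E₁ E₂ E₃ _ _ _ _ _ _ z₁ z₂ z₃ h₁ h₂ h₃ c₁ c₂ c₃
    by_cases hab₁ : center E₁ = ⊤
    · by_cases hab₂ : center E₂ = ⊤
      · exact Or.inl (exists_mulEquiv_of_cyclic h₁ h₂ hab₁ hab₂)
      · exact absurd hab₁ (center_ne_top_of_card h₂ h₁ (c₂.trans c₁.symm) hab₂)
    by_cases h8 : 8 < n
    · obtain ⟨x₁, hx₁, sx₁⟩ := exists_noncentral_involution h₁ (c₁ ▸ h8)
      obtain ⟨y₁, e₁, sy₁⟩ := exists_dihedral_pair h₁ hx₁ sx₁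
      obtain ⟨x₂, hx₂, sx₂⟩ := exists_noncentral_involution h₂ (c₂ ▸ h8)
      obtain ⟨y₂, e₂, sy₂⟩ := exists_dihedral_pair h₂ hx₂ sx₂
      obtain ⟨x₃, hx₃, sx₃⟩ := exists_noncentral_involution h₃ (c₃ ▸ h8)
      obtain ⟨y₃, e₃, sy₃⟩ := exists_dihedral_pair h₃ hx₃ sx₃
      have q₁ := card_eq_sq_mul_pairC h₁ e₁
      have q₂ := card_eq_sq_mul_pairC h₂ e₂
      have q₃ := card_eq_sq_mul_pairC h₃ e₃
      have hlt : Nat.card (pairC x₁ y₁) < n := by
        rw [← c₁, q₁]; exact lt_mul_left Nat.card_pos (by norm_num)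
      rcases ih _ hlt (sympLike_pairC h₁ e₁) (sympLike_pairC h₂ e₂) (sympLike_pairC h₃ e₃) rfl
        (by omega) (by omega) with ⟨ψ, hψ⟩ | ⟨ψ, hψ⟩ | ⟨ψ, hψ⟩
      · exact Or.inl (exists_mulEquiv_of_pairs h₁ h₂ e₁ e₂ (s := 0) (t := 0) (by simpa using sx₁)
          (by simpa using sy₁) (by simpa using sx₂) (by simpa using sy₂) ψ hψ)
      · exact Or.inr (Or.inl (exists_mulEquiv_of_pairs h₂ h₃ e₂ e₃ (s := 0) (t := 0)
          (by simpa using sx₂) (by simpa using sy₂) (by simpa using sx₃) (by simpa using sy₃) ψ hψ))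
      · exact Or.inr (Or.inr (exists_mulEquiv_of_pairs h₁ h₃ e₁ e₃ (s := 0) (t := 0)
          (by simpa using sx₁) (by simpa using sy₁) (by simpa using sx₃) (by simpa using sy₃) ψ hψ))
    -- order `8`: the type is decided by a noncentral involution
    have hab₂ := center_ne_top_of_card h₁ h₂ (c₁.trans c₂.symm) hab₁
    by_cases t₁ : (∃ x : E₁, x ∉ center E₁ ∧ x ^ 2 = 1) ↔ (∃ x : E₂, x ∉ center E₂ ∧ x ^ 2 = 1)
    · exact Or.inl (exists_mulEquiv_small h₁ h₂ (c₁.trans c₂.symm) (c₁ ▸ h8) hab₁ t₁)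
    by_cases t₂ : (∃ x : E₂, x ∉ center E₂ ∧ x ^ 2 = 1) ↔ (∃ x : E₃, x ∉ center E₃ ∧ x ^ 2 = 1)
    · exact Or.inr (Or.inl (exists_mulEquiv_small h₂ h₃ (c₂.trans c₃.symm) (c₂ ▸ h8) hab₂ t₂))
    exact Or.inr (Or.inr (exists_mulEquiv_small h₁ h₃ (c₁.trans c₃.symm) (c₁ ▸ h8) hab₁
      (by classical exact iff_iff_and_or_not_and_not.mpr (by
        rcases Classical.em (∃ x : E₂, x ∉ center E₂ ∧ x ^ 2 = 1) with hb | hb <;> simp_all))))

/-- An extraspecial group is `SympLike` with respect to a generator of its centre. -/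
theorem exists_sympLike {E : Type u} [Group E] [Finite E] {p : ℕ} [hp : Fact p.Prime]
    (h : Cfsg.IsExtraspecial p E) : ∃ z : E, SympLike p z ∧ center E ≠ ⊤ := by
  obtain ⟨z, hz⟩ := exists_prime_orderOf_dvd_card' (G := center E) p (by rw [h.2])
  rw [← orderOf_coe] at hz
  have hle : center E ≤ zpowers (z : E) :=
    (eq_of_le_of_card_ge (zpowers_le.mpr z.2) (by rw [Nat.card_zpowers, hz, h.2])).ge
  refine ⟨z, ⟨z.2, hz, fun g k => hle (CfsgLib.PGroups.IsExtraspecial.commutator_mem_center h g k),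
    fun g => hle (CfsgLib.PGroups.IsExtraspecial.pow_mem_center h g), hle⟩, fun hab => ?_⟩
  obtain ⟨a, b, hab'⟩ := CfsgLib.PGroups.IsExtraspecial.exists_not_commute h
  exact hab' (mem_center_iff.mp (hab ▸ mem_top b) a)

end CfsgLib.Transfer
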