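import Cfsg.Agent.Lib.Transfer.Fusion
import Cfsg.Agent.Lib.PGroups.Basic
import Mathlib.Algebra.Group.ForwardDiff
import Mathlib.Data.Nat.Choose.Dvd

/-!
The Hall–Wielandt transfer theorem: if a Sylow `p`-subgroup has class less than `p`, its
normalizer controls the `p`-transfer.
-/

set_option autoImplicit false

namespace CfsgLib.Transfer

open Subgroup Finset
open scoped commutatorElement Pointwise fwdDiff

theorem sum_range_eq_sum_choose_fwdDiff {B : Type*} [AddCommGroup B] (f : ℕ → B) (n : ℕ) :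
    ∑ i ∈ range n, f i = ∑ k ∈ range n, n.choose (k + 1) • (Δ_[1]^[k] f 0) := by
  have h1 : Δ_[1] (fun m => ∑ i ∈ range m, f i) = f := funext fun m => by
    simp [fwdDiff, Finset.sum_range_succ]
  have h2 := shift_eq_sum_fwdDiff_iter 1 (fun m => ∑ i ∈ range m, f i) n 0
  rw [Finset.sum_range_succ'] at h2
  simp only [Function.iterate_succ_apply, h1] at h2
  simpa using h2

variable {G : Type*} [Group G] {A : Type*} [CommGroup A] (H : Subgroup G) (φ : H →* A)

theorem out_mem (w : H) (q : G ⧸ H) :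
    q.out⁻¹ * (w : G) * ((w : G)⁻¹ • q).out ∈ H := by
  have h1 : ((((w : G)⁻¹ * q.out : G)) : G ⧸ H) = (((w : G)⁻¹ • q).out : G ⧸ H) := by
    conv_rhs => rw [QuotientGroup.out_eq', ← QuotientGroup.out_eq' q]
    rfl
  have := QuotientGroup.eq.mp h1
  rwa [mul_inv_rev, inv_inv] at this

/-- The factor of the transfer to `A` at one coset. -/
noncomputable def cocycle (q : G ⧸ H) (w : H) : A :=
  φ ⟨q.out⁻¹ * (w : G) * ((w : G)⁻¹ • q).out, out_mem H w q⟩

theorem cocycle_mul (q : G ⧸ H) (w v : H) :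
    cocycle H φ q (w * v) = cocycle H φ q w * cocycle H φ ((w : G)⁻¹ • q) v := by
  rw [cocycle, cocycle, cocycle, ← map_mul]
  congr 1
  refine Subtype.ext ?_
  simp only [Subgroup.coe_mul, mul_inv_rev, mul_smul]
  group

theorem cocycle_one (q : G ⧸ H) : cocycle H φ q 1 = 1 := by
  have h := cocycle_mul H φ q 1 1
  simp only [one_mul, OneMemClass.coe_one, inv_one, one_smul] at h
  exact left_eq_mul.mp h

theorem cocycle_pow (q : G ⧸ H) (w : H) (k : ℕ) :
    cocycle H φ q (w ^ k) = ∏ i ∈ range k, cocycle H φ (((w : G) ^ i)⁻¹ • q) w := by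
  induction k with
  | zero => simp [cocycle_one]
  | succ k ih =>
    rw [pow_succ, cocycle_mul, ih, Finset.prod_range_succ]
    simp

/-- The contribution of a set of cosets. -/
noncomputable def part (X : Finset (G ⧸ H)) (w : H) : A := ∏ q ∈ X, cocycle H φ q w

theorem prod_smul_eq [DecidableEq (G ⧸ H)] {X : Finset (G ⧸ H)} (g : G)
    (hX : ∀ q ∈ X, g • q ∈ X) (f : G ⧸ H → A) : ∏ q ∈ X, f (g • q) = ∏ q ∈ X, f q := by
  have himg : X.image (g • ·) = X :=
    Finset.eq_of_subset_of_card_le (Finset.image_subset_iff.mpr hX)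
      (Finset.card_image_of_injective _ (MulAction.injective g)).ge
  conv_rhs => rw [← himg]
  rw [Finset.prod_image fun a _ b _ h => MulAction.injective g h]

theorem part_mul [DecidableEq (G ⧸ H)] {X : Finset (G ⧸ H)} {w : H} (v : H)
    (hX : ∀ q ∈ X, (w : G)⁻¹ • q ∈ X) :
    part H φ X (w * v) = part H φ X w * part H φ X v := by
  simp only [part, cocycle_mul, Finset.prod_mul_distrib]
  rw [prod_smul_eq H (w : G)⁻¹ hX fun q => cocycle H φ q v]

theorem part_smul [DecidableEq (G ⧸ H)] {X : Finset (G ⧸ H)} {y m : H}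
    (hX : ∀ q ∈ X, ((y⁻¹ * m * y : H) : G)⁻¹ • q ∈ X) :
    part H φ (X.image ((y : G) • ·)) m = part H φ X (y⁻¹ * m * y) := by
  rw [part, Finset.prod_image fun a _ b _ h => MulAction.injective _ h, part]
  have key : ∀ q : G ⧸ H, cocycle H φ ((y : G) • q) m *
      cocycle H φ ((y : G) • ((y⁻¹ * m * y : H) : G)⁻¹ • q) y =
      cocycle H φ ((y : G) • q) y * cocycle H φ q (y⁻¹ * m * y) := by
    intro q
    have h1 := cocycle_mul H φ ((y : G) • q) y (y⁻¹ * m * y)
    rw [inv_smul_smul, show y * (y⁻¹ * m * y) = m * y by group, cocycle_mul] at h1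
    rw [← h1]
    congr 2
    rw [← mul_smul, ← mul_smul]
    congr 1
    simp only [Subgroup.coe_mul, Subgroup.coe_inv]
    group
  have h2 := Finset.prod_congr rfl fun q (_ : q ∈ X) => key q
  rw [Finset.prod_mul_distrib, Finset.prod_mul_distrib,
    prod_smul_eq H _ hX fun q => cocycle H φ ((y : G) • q) y, mul_comm] at h2
  exact mul_left_cancel h2

/-- If `φ` respects all conjugations of powers of `w`, every stable set contributes a power. -/
theorem part_eq_pow [DecidableEq (G ⧸ H)] {w : H} (hw : IsOfFinOrder (w : G))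
    (hinv : ∀ (m : ℕ) (g : G) (h : g⁻¹ * (w : G) ^ m * g ∈ H), φ ⟨_, h⟩ = φ w ^ m)
    (X : Finset (G ⧸ H)) (hX : ∀ q ∈ X, (w : G)⁻¹ • q ∈ X) :
    part H φ X w = φ w ^ X.card := by
  induction X using Finset.strongInduction with
  | H X ih =>
    rcases X.eq_empty_or_nonempty with rfl | ⟨q, hq⟩
    · simp [part]
    set u := (w : G)⁻¹
    set n := Function.minimalPeriod (u • ·) q with hn
    have hper : q ∈ Function.periodicPts (u • · : G ⧸ H → G ⧸ H) :=
      ⟨orderOf u, hw.inv.orderOf_pos, by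
        show (u • ·)^[orderOf u] q = q
        rw [smul_iterate]; simp [pow_orderOf_eq_one]⟩
    have hnpos : 0 < n := Function.minimalPeriod_pos_of_mem_periodicPts hper
    set C := (range n).image (fun i => u ^ i • q) with hC
    have hinj : Set.InjOn (fun i => u ^ i • q) (range n : Set ℕ) := by
      intro i hi j hj hij
      simp only [Finset.coe_range, Set.mem_Iio] at hi hj
      refine Function.iterate_injOn_Iio_minimalPeriod hi hj ?_
      simpa [smul_iterate] using hij
    have hmem : ∀ i, u ^ i • q ∈ X := fun i => by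
      induction i with
      | zero => simpa using hq
      | succ i hi => rw [pow_succ', mul_smul]; exact hX _ hi
    have hCX : C ⊆ X := Finset.image_subset_iff.mpr fun i _ => hmem i
    have hfix : u ^ n • q = q := by
      rw [← MulAction.pow_smul_mod_minimalPeriod, ← hn, Nat.mod_self, pow_zero, one_smul]
    have hClosed : ∀ r ∈ X \ C, u • r ∈ X \ C := by
      intro r hr
      rw [Finset.mem_sdiff] at hr ⊢
      refine ⟨hX _ hr.1, fun hc => hr.2 ?_⟩
      obtain ⟨i, hi, hir⟩ := Finset.mem_image.mp hc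
      have hi' := Finset.mem_range.mp hi
      refine Finset.mem_image.mpr ⟨(i + (n - 1)) % n, Finset.mem_range.mpr (Nat.mod_lt _ hnpos), ?_⟩
      apply MulAction.injective u
      change u • u ^ ((i + (n - 1)) % n) • q = u • r
      rw [← hir, ← mul_smul, ← pow_succ']
      have h3 : ∀ k, u ^ k • q = u ^ (k % n) • q := fun k => (MulAction.pow_smul_mod_minimalPeriod u q k).symm
      rw [h3, h3 i]
      congr 2
      rw [Nat.mod_add_mod]
      rw [show i + (n - 1) + 1 = i + n by omega, Nat.add_mod_right]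
    have hq' : q ∈ C := Finset.mem_image.mpr ⟨0, Finset.mem_range.mpr hnpos, by simp⟩
    have hlt : X \ C ⊂ X := Finset.sdiff_ssubset hCX ⟨q, hq'⟩
    have hCp : part H φ C w = φ w ^ n := by
      rw [part, hC, Finset.prod_image hinj]
      have h1 : ∏ i ∈ range n, cocycle H φ (u ^ i • q) w = cocycle H φ q (w ^ n) := by
        rw [cocycle_pow]; simp only [u, inv_pow]
      rw [h1, cocycle]
      have h2 : ((w ^ n : H) : G)⁻¹ • q = q := by
        simpa only [Subgroup.coe_pow, inv_pow, u] using hfix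
      have h3 : q.out⁻¹ * (w : G) ^ n * q.out ∈ H := by
        have := out_mem H (w ^ n) q
        rwa [h2, Subgroup.coe_pow] at this
      rw [← hinv n q.out h3]
      congr 1
      refine Subtype.ext ?_
      change q.out⁻¹ * ((w ^ n : H) : G) * (((w ^ n : H) : G)⁻¹ • q).out = _
      rw [h2, Subgroup.coe_pow]
    calc part H φ X w = part H φ (X \ C) w * part H φ C w := (Finset.prod_sdiff hCX).symm
      _ = φ w ^ ((X \ C).card + C.card) := by
        rw [ih _ hlt hClosed, hCp, pow_add, hC, Finset.card_image_of_injOn hinj, Finset.card_range]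
      _ = φ w ^ X.card := by rw [Finset.card_sdiff_add_card_eq_card hCX]

variable [Finite G] {p : ℕ} [hp : Fact p.Prime]

/-- The contribution of one nontrivial orbit is a power, for class less than `p`. -/
theorem part_orbit_eq_pow [DecidableEq (G ⧸ H)] (hH : IsPGroup p H)
    (hcl : H.lowerCentralSeries (p - 1) = ⊥) {M : Subgroup H} [M.Normal] (hMi : M.index = p)
    {X : Finset (G ⧸ H)} (hX : ∀ m ∈ M, ∀ q ∈ X, (m : G) • q ∈ X) {x : H}
    (hsmall : ∀ w : H, orderOf w < orderOf x → ∀ (m : ℕ) (g : G) (h : g⁻¹ * (w : G) ^ m * g ∈ H),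
      φ ⟨_, h⟩ = φ w ^ m)
    {y : H} (hy : y ∉ M) (hyx : x ∉ M → y = x) :
    ∏ i ∈ range p, part H φ (X.image (((y ^ i : H) : G) • ·)) x = φ x ^ (p * X.card) := by
  have hXi : ∀ m ∈ M, ∀ q ∈ X, (m : G)⁻¹ • q ∈ X := fun m hm q hq => by
    have := hX m⁻¹ (inv_mem hm) q hq
    simpa using this
  let c : M →* A := MonoidHom.mk' (fun m => part H φ X (m : H)) fun a b =>
    part_mul H φ _ (hXi a a.2)
  have hpM : ∀ w : H, w ^ p ∈ M := fun w => hMi ▸ pow_index_mem M w
  have hxp : orderOf (x ^ p) < orderOf x ∨ x = 1 := by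
    rcases eq_or_ne x 1 with h | h
    · exact Or.inr h
    obtain ⟨k, hk⟩ := (IsPGroup.iff_orderOf.mp hH) x
    rcases k with _ | k
    · exact absurd (orderOf_eq_one_iff.mp (hk.trans (pow_zero p))) h
    left
    rw [orderOf_pow_of_dvd hp.out.ne_zero (hk ▸ dvd_pow_self p k.succ_ne_zero), hk, pow_succ,
      Nat.mul_div_cancel _ hp.out.pos]
    exact lt_mul_of_one_lt_right (pow_pos hp.out.pos k) hp.out.one_lt
  -- `p`-th powers of conjugates of `x`
  have hpow : ∀ z : H, part H φ X (z⁻¹ * x ^ p * z) = φ x ^ (p * X.card) := by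
    intro z
    rcases hxp with hlt | rfl
    · have ho : orderOf (z⁻¹ * x ^ p * z) < orderOf x := by
        rwa [show z⁻¹ * x ^ p * z = (MulAut.conj z⁻¹).toMonoidHom (x ^ p) by simp,
          orderOf_injective _ (MulEquiv.injective _)]
      rw [part_eq_pow H φ (isOfFinOrder_of_finite _) (hsmall _ ho) X
        (hXi _ (by simpa using ‹M.Normal›.conj_mem _ (hpM x) z⁻¹))]
      rw [map_mul, map_mul, map_inv, map_pow, mul_comm (φ z)⁻¹, inv_mul_cancel_right, ← pow_mul]
    · simp [part, cocycle_one]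
  by_cases hxM : x ∈ M
  · let cx : ℕ → M := fun i => ⟨(y ^ i)⁻¹ * x * y ^ i, by
      simpa using ‹M.Normal›.conj_mem _ hxM (y ^ i)⁻¹⟩
    have hterm : ∀ i, part H φ (X.image (((y ^ i : H) : G) • ·)) x = c (cx i) := fun i =>
      part_smul H φ (hXi _ (cx i).2)
    simp only [hterm]
    -- forward differences of `i ↦ c (x ^ (y ^ i))`
    set f : ℕ → Additive A := fun i => Additive.ofMul (c (cx i)) with hf
    have hfp : p • f = fun _ => Additive.ofMul (φ x ^ (p * X.card)) := funext fun i => by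
      rw [Pi.smul_apply, hf]
      change Additive.ofMul (c (cx i) ^ p) = _
      rw [← map_pow]
      congr 1
      change part H φ X (((y ^ i)⁻¹ * x * y ^ i) ^ p) = _
      rw [show ((y ^ i)⁻¹ * x * y ^ i) ^ p = (y ^ i)⁻¹ * x ^ p * y ^ i by
        simpa using (conj_pow (a := (y ^ i)⁻¹) (b := x) (i := p))]
      exact hpow _
    have hd : ∀ k, ∃ d : H, (d : G) ∈ H.lowerCentralSeries k ∧ ∃ hdM : d ∈ M,
        ∀ i, Δ_[1]^[k] f i = Additive.ofMul (c ⟨(y ^ i)⁻¹ * d * y ^ i, by
          simpa using ‹M.Normal›.conj_mem _ hdM (y ^ i)⁻¹⟩) := by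
      intro k
      induction k with
      | zero => exact ⟨x, x.2, hxM, fun i => rfl⟩
      | succ k ih =>
        obtain ⟨d, hdL, hdM, hdf⟩ := ih
        have hd'M : d⁻¹ * (y⁻¹ * d * y) ∈ M :=
          mul_mem (inv_mem hdM) (by simpa using ‹M.Normal›.conj_mem _ hdM y⁻¹)
        refine ⟨d⁻¹ * (y⁻¹ * d * y), ?_, hd'M, fun i => ?_⟩
        · rw [Subgroup.lowerCentralSeries_succ]
          have : ((d⁻¹ * (y⁻¹ * d * y) : H) : G) = ⁅(d : G)⁻¹, (y : G)⁻¹⁆ := by
            simp [commutatorElement_def, mul_assoc]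
          rw [this]
          exact commutator_mem_commutator (inv_mem hdL) (inv_mem y.2)
        · rw [Function.iterate_succ_apply', fwdDiff, hdf, hdf, sub_eq_add_neg, ← ofMul_inv,
            ← map_inv, ← ofMul_mul, ← map_mul]
          rw [map_mul, mul_comm, ← map_mul]
          congr 2
          refine Subtype.ext ?_
          change ((y ^ i)⁻¹ * d * y ^ i)⁻¹ * ((y ^ (i + 1))⁻¹ * d * y ^ (i + 1)) = _
          rw [pow_succ']
          group
    have hlast : Δ_[1]^[p - 1] f 0 = 0 := by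
      obtain ⟨d, hdL, hdM, hdf⟩ := hd (p - 1)
      rw [hcl, Subgroup.mem_bot] at hdL
      have : d = 1 := Subtype.ext hdL
      subst this
      rw [hdf, show (⟨_, _⟩ : M) = 1 from Subtype.ext (by simp : (y ^ 0)⁻¹ * (1 : H) * y ^ 0 = 1),
        map_one, ofMul_one]
    have hdiv : ∀ k ∈ range p, k ≠ 0 → p.choose (k + 1) • Δ_[1]^[k] f 0 = 0 := by
      intro k hk hk0
      have hk' := Finset.mem_range.mp hk
      rcases Nat.lt_or_ge (k + 1) p with hlt | hge
      · obtain ⟨j, hj⟩ := Nat.Prime.dvd_choose_self hp.out (Nat.succ_ne_zero k) hlt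
        obtain ⟨k, rfl⟩ := Nat.exists_eq_succ_of_ne_zero hk0
        have h0 : p • Δ_[1]^[k.succ] f 0 = 0 := by
          rw [show p • Δ_[1]^[k.succ] f 0 = (p • Δ_[1]^[k.succ] f) 0 from rfl,
            ← fwdDiff_iter_const_smul, hfp, Function.iterate_succ_apply, fwdDiff_const,
            Function.iterate_fixed (fwdDiff_const _ 0)]
        rw [hj, mul_comm, mul_nsmul', h0, smul_zero]
      · rw [show k = p - 1 by omega, hlast, smul_zero]
    have hsum := sum_range_eq_sum_choose_fwdDiff f p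
    rw [Finset.sum_eq_single_of_mem 0 (Finset.mem_range.mpr hp.out.pos) hdiv] at hsum
    rw [zero_add, Nat.choose_one_right, Function.iterate_zero, id] at hsum
    rw [show p • f 0 = (p • f) 0 from rfl, hfp, ← ofMul_prod] at hsum
    exact Additive.ofMul.injective hsum
  · have hyx' := hyx hxM
    subst hyx'
    have hY : ∀ i, part H φ (X.image (((y ^ i : H) : G) • ·)) y =
        ∏ q ∈ X, cocycle H φ (((y ^ i : H) : G) • q) y := fun i =>
      Finset.prod_image fun a _ b _ h => MulAction.injective _ h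
    simp only [hY]
    rw [Finset.prod_comm]
    have h1 : ∀ q, ∏ i ∈ range p, cocycle H φ (((y ^ i : H) : G) • q) y =
        cocycle H φ (((y ^ (p - 1) : H) : G) • q) (y ^ p) := by
      intro q
      rw [cocycle_pow, ← Finset.prod_range_reflect]
      refine Finset.prod_congr rfl fun i hi => ?_
      have hi' := Finset.mem_range.mp hi
      rw [← mul_smul, Subgroup.coe_pow, Subgroup.coe_pow]
      congr 2
      rw [eq_inv_mul_iff_mul_eq, ← pow_add]
      congr 1
      omega
    simp only [h1]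
    calc ∏ q ∈ X, cocycle H φ (((y ^ (p - 1) : H) : G) • q) (y ^ p)
        = part H φ (X.image (((y ^ (p - 1) : H) : G) • ·)) (y ^ p) :=
          by rw [part, Finset.prod_image fun a _ b _ h => MulAction.injective _ h]
      _ = _ := by
          rw [part_smul H φ (hXi _ ?_), hpow]
          simpa using ‹M.Normal›.conj_mem _ (hpM y) (y ^ (p - 1))⁻¹

omit hp in
theorem out_mem' (w : G) (q : G ⧸ H) : q.out⁻¹ * w * (w⁻¹ • q).out ∈ H := by
  have h1 : (((w⁻¹ * q.out : G)) : G ⧸ H) = ((w⁻¹ • q).out : G ⧸ H) := by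
    conv_rhs => rw [QuotientGroup.out_eq', ← QuotientGroup.out_eq' q]
    rfl
  have := QuotientGroup.eq.mp h1
  rwa [mul_inv_rev, inv_inv] at this

/-- The transfer, as the product of all the factors. -/
noncomputable def total [Fintype (G ⧸ H)] : G →* A :=
  MonoidHom.mk' (fun w => ∏ q : G ⧸ H, φ ⟨q.out⁻¹ * w * (w⁻¹ • q).out, out_mem' H w q⟩) fun w v => by
    rw [← Equiv.prod_comp (MulAction.toPerm (w⁻¹ : G))
      (fun q : G ⧸ H => φ ⟨q.out⁻¹ * v * (v⁻¹ • q).out, out_mem' H v q⟩), ← Finset.prod_mul_distrib]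
    refine Finset.prod_congr rfl fun q _ => ?_
    rw [← map_mul]
    congr 1
    refine Subtype.ext ?_
    simp only [Subgroup.coe_mul, mul_inv_rev, mul_smul, MulAction.toPerm_apply]
    group

/-- Every stable set contributes a power, for class less than `p`. -/
theorem part_eq_pow_of_class_lt [DecidableEq (G ⧸ H)] (hH : IsPGroup p H)
    (hcl : H.lowerCentralSeries (p - 1) = ⊥)
    (hN : ∀ n ∈ normalizer (H : Set G), ∀ x : H, ∀ h : n⁻¹ * (x : G) * n ∈ H, φ ⟨_, h⟩ = φ x)
    (x : H) (hsmall : ∀ w : H, orderOf w < orderOf x → ∀ (m : ℕ) (g : G)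
      (h : g⁻¹ * (w : G) ^ m * g ∈ H), φ ⟨_, h⟩ = φ w ^ m)
    (X : Finset (G ⧸ H)) (hX : ∀ m : H, ∀ q ∈ X, (m : G) • q ∈ X) :
    part H φ X x = φ x ^ X.card := by
  classical
  haveI : Fintype H := Fintype.ofFinite H
  induction X using Finset.strongInduction with
  | H X ih =>
    rcases X.eq_empty_or_nonempty with rfl | ⟨q, hq⟩
    · simp [part]
    set O := (Finset.univ : Finset H).image (fun m : H => (m : G) • q) with hO
    have hqO : q ∈ O := Finset.mem_image.mpr ⟨1, Finset.mem_univ _, by simp⟩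
    have hOX : O ⊆ X := Finset.image_subset_iff.mpr fun m _ => hX m q hq
    have hrest : ∀ m : H, ∀ r ∈ X \ O, (m : G) • r ∈ X \ O := by
      intro m r hr
      rw [Finset.mem_sdiff] at hr ⊢
      refine ⟨hX m r hr.1, fun hc => hr.2 ?_⟩
      obtain ⟨k, -, hk⟩ := Finset.mem_image.mp hc
      refine Finset.mem_image.mpr ⟨m⁻¹ * k, Finset.mem_univ _, ?_⟩
      rw [Subgroup.coe_mul, mul_smul, hk, Subgroup.coe_inv, inv_smul_smul]
    suffices hOp : part H φ O x = φ x ^ O.card by
      calc part H φ X x = part H φ (X \ O) x * part H φ O x := (Finset.prod_sdiff hOX).symm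
        _ = φ x ^ X.card := by
          rw [ih _ (Finset.sdiff_ssubset hOX ⟨q, hqO⟩) hrest, hOp, ← pow_add,
            Finset.card_sdiff_add_card_eq_card hOX]
    let S : Subgroup H := (MulAction.stabilizer G q).comap H.subtype
    by_cases hS : S = ⊤
    · have hfix : ∀ m : H, (m : G) • q = q := fun m =>
        (show m ∈ S from hS ▸ Subgroup.mem_top m)
      have hO1 : O = {q} := Finset.eq_singleton_iff_unique_mem.mpr
        ⟨hqO, fun r hr => by obtain ⟨m, -, rfl⟩ := Finset.mem_image.mp hr; exact hfix m⟩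
      have hconj : ∀ m : H, q.out⁻¹ * (m : G) * q.out ∈ H := fun m => by
        have := out_mem' H (m : G) q
        rwa [show (m : G)⁻¹ • q = q by simpa using hfix m⁻¹] at this
      have hn : q.out ∈ normalizer (H : Set G) := by
        have heq : H.map (MulAut.conj q.out⁻¹).toMonoidHom = H := by
          refine eq_of_le_of_card_ge ?_ (card_map_of_injective (MulEquiv.injective _)).ge
          rintro _ ⟨m, hm, rfl⟩
          simpa using hconj ⟨m, hm⟩
        refine inv_mem_iff.mp (Subgroup.mem_normalizer_iff.mpr fun z => ?_)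
        exact ⟨fun hz => heq.le ⟨z, hz, rfl⟩,
          fun hz => (mem_map_iff_mem (MulAut.conj q.out⁻¹).injective).mp (heq.ge hz)⟩
      rw [hO1, part, Finset.prod_singleton, Finset.card_singleton, pow_one, ← hN _ hn x (hconj x),
        cocycle]
      congr 1
      refine Subtype.ext ?_
      change q.out⁻¹ * (x : G) * ((x : G)⁻¹ • q).out = _
      rw [show (x : G)⁻¹ • q = q by simpa using hfix x⁻¹]
    obtain ⟨M, hSM, hMn, hMi, -⟩ := PGroups.exists_le_index_prime hH hS
    obtain ⟨y, hy, hyx⟩ : ∃ y : H, y ∉ M ∧ (x ∉ M → y = x) := by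
      by_cases hx : x ∈ M
      · have : M ≠ ⊤ := fun e => hp.out.ne_one (by rw [← hMi, e, index_top])
        obtain ⟨y, -, hy⟩ := SetLike.exists_of_lt (lt_top_iff_ne_top.mpr this)
        exact ⟨y, hy, fun h => absurd hx h⟩
      · exact ⟨x, hx, fun _ => rfl⟩
    set X₀ := ((Finset.univ : Finset H).filter (· ∈ M)).image (fun m : H => (m : G) • q) with hX₀
    have hX₀s : ∀ m ∈ M, ∀ r ∈ X₀, (m : G) • r ∈ X₀ := by
      intro m hm r hr
      obtain ⟨k, hk, rfl⟩ := Finset.mem_image.mp hr
      refine Finset.mem_image.mpr ⟨m * k, Finset.mem_filter.mpr ⟨Finset.mem_univ _,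
        mul_mem hm (Finset.mem_filter.mp hk).2⟩, ?_⟩
      rw [Subgroup.coe_mul, mul_smul]
    have hgen : ∀ u : H, ∃ i < p, (y ^ i)⁻¹ * u ∈ M := by
      intro u
      have hcard : Nat.card (H ⧸ M) = p := hMi
      have hyne : (y : H ⧸ M) ≠ 1 := fun e => hy ((QuotientGroup.eq_one_iff y).mp e)
      obtain ⟨i, hi, hiu⟩ : ∃ i < p, (y : H ⧸ M) ^ i = (u : H ⧸ M) := by
        have hmem : (u : H ⧸ M) ∈ zpowers (y : H ⧸ M) := mem_zpowers_of_prime_card hcard hyne
        obtain ⟨i, hi⟩ := (isOfFinOrder_of_finite _).mem_powers_iff_mem_zpowers.mpr hmem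
        refine ⟨i % p, Nat.mod_lt _ hp.out.pos, ?_⟩
        simp only at hi
        rw [← hi]
        conv_rhs => rw [← pow_mod_natCard, hcard]
      refine ⟨i, hi, QuotientGroup.eq.mp ?_⟩
      rw [← hiu]
      rfl
    have hdisj : ∀ i < p, ∀ j < p, ∀ r ∈ X₀, ∀ r' ∈ X₀,
        ((y ^ i : H) : G) • r = ((y ^ j : H) : G) • r' → i = j := by
      intro i hi j hj r hr r' hr' he
      obtain ⟨k, hk, rfl⟩ := Finset.mem_image.mp hr
      obtain ⟨k', hk', rfl⟩ := Finset.mem_image.mp hr'
      rw [← mul_smul, ← mul_smul, ← Subgroup.coe_mul, ← Subgroup.coe_mul, smul_eq_iff_eq_inv_smul,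
        ← mul_smul, ← Subgroup.coe_inv, ← Subgroup.coe_mul] at he
      have hmem : (y ^ i * k)⁻¹ * (y ^ j * k') ∈ M := hSM he.symm
      rw [mul_inv_rev, mul_assoc,
        M.mul_mem_cancel_left (inv_mem (Finset.mem_filter.mp hk).2), ← mul_assoc,
        M.mul_mem_cancel_right (Finset.mem_filter.mp hk').2] at hmem
      have h2 : ((y : H ⧸ M)) ^ i = (y : H ⧸ M) ^ j := QuotientGroup.eq.mpr hmem
      have hyne : (y : H ⧸ M) ≠ 1 := fun e => hy ((QuotientGroup.eq_one_iff y).mp e)
      have ho : orderOf (y : H ⧸ M) = p :=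
        orderOf_eq_prime (by rw [← (hMi : Nat.card (H ⧸ M) = p)]; exact pow_card_eq_one') hyne
      exact pow_injOn_Iio_orderOf (by rwa [ho]) (by rwa [ho]) h2
    have hunion : O = (range p).biUnion (fun i => X₀.image (((y ^ i : H) : G) • ·)) := by
      ext r
      simp only [Finset.mem_biUnion, Finset.mem_image, hO, hX₀, Finset.mem_filter, Finset.mem_univ,
        true_and, Finset.mem_range]
      constructor
      · rintro ⟨u, rfl⟩
        obtain ⟨i, hi, him⟩ := hgen u
        refine ⟨i, hi, _, ⟨_, him, rfl⟩, ?_⟩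
        rw [← mul_smul, ← Subgroup.coe_mul, mul_inv_cancel_left]
      · rintro ⟨i, -, _, ⟨m, -, rfl⟩, rfl⟩
        exact ⟨y ^ i * m, by rw [Subgroup.coe_mul, mul_smul]⟩
    have hpd : (range p : Set ℕ).PairwiseDisjoint (fun i => X₀.image (((y ^ i : H) : G) • ·)) := by
      intro i hi j hj hij
      simp only [Function.onFun, Finset.disjoint_left]
      intro r hr hr'
      obtain ⟨a, ha, rfl⟩ := Finset.mem_image.mp hr
      obtain ⟨b, hb, hbe⟩ := Finset.mem_image.mp hr'
      exact hij (hdisj i (Finset.mem_range.mp hi) j (Finset.mem_range.mp hj) a ha b hb hbe.symm)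
    have hcard : O.card = p * X₀.card := by
      rw [hunion, Finset.card_biUnion hpd]
      simp [Finset.card_image_of_injective _ (MulAction.injective _)]
    rw [hcard, part, hunion, Finset.prod_biUnion hpd]
    exact part_orbit_eq_pow H φ hH hcl hMi hX₀s hsmall hy hyx

/-- **Hall–Wielandt**: for a Sylow subgroup of class less than `p`, a character invariant under
its normalizer respects all fusion. -/
theorem invariant_of_class_lt (P : Sylow p G)
    (hcl : (P : Subgroup G).lowerCentralSeries (p - 1) = ⊥)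
    (ψ : (P : Subgroup G) →* A)
    (hN : ∀ n ∈ normalizer ((P : Subgroup G) : Set G), ∀ x : (P : Subgroup G),
      ∀ h : n⁻¹ * (x : G) * n ∈ (P : Subgroup G), ψ ⟨_, h⟩ = ψ x) :
    ∀ (x : (P : Subgroup G)) (g : G) (h : g⁻¹ * (x : G) * g ∈ (P : Subgroup G)),
      ψ ⟨_, h⟩ = ψ x := by
  classical
  haveI : Fintype (G ⧸ (P : Subgroup G)) := Fintype.ofFinite _
  intro x
  induction ho : orderOf x using Nat.strong_induction_on generalizing x with
  | _ o ih =>
    have hsmall : ∀ w : (P : Subgroup G), orderOf w < o → ∀ (m : ℕ) (g : G)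
        (h : g⁻¹ * (w : G) ^ m * g ∈ (P : Subgroup G)), ψ ⟨_, h⟩ = ψ w ^ m := fun w hw m g h => by
      rw [← map_pow]
      have hle : orderOf (w ^ m) < o :=
        lt_of_le_of_lt (Nat.le_of_dvd (orderOf_pos w) (orderOf_pow_dvd m)) hw
      exact ih _ hle (w ^ m) rfl g (by simpa using h)
    have hV : ∀ w : (P : Subgroup G), orderOf w = o →
        total (P : Subgroup G) ψ (w : G) = ψ w ^ (P : Subgroup G).index := fun w hw => by
      rw [index_eq_card, Nat.card_eq_fintype_card, ← Finset.card_univ,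
        ← part_eq_pow_of_class_lt (P : Subgroup G) ψ P.2 hcl hN w (hw ▸ hsmall) Finset.univ
          fun _ _ _ => Finset.mem_univ _]
      rfl
    intro g h
    have hz : orderOf (⟨g⁻¹ * (x : G) * g, h⟩ : (P : Subgroup G)) = o := by
      rw [orderOf_mk, show g⁻¹ * (x : G) * g = (MulAut.conj g⁻¹).toMonoidHom (x : G) by simp,
        orderOf_injective _ (MulEquiv.injective _), orderOf_coe, ho]
    have h1 : ψ ⟨_, h⟩ ^ (P : Subgroup G).index = ψ x ^ (P : Subgroup G).index := by
      rw [← hV x ho, ← hV _ hz, map_mul, map_mul, map_inv, mul_comm (_⁻¹ : A), inv_mul_cancel_right]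
    obtain ⟨k, hk⟩ := (IsPGroup.iff_orderOf.mp P.2) x
    have hco : Nat.Coprime (p ^ k) (P : Subgroup G).index :=
      Nat.Coprime.pow_left k (hp.out.coprime_iff_not_dvd.mpr P.not_dvd_index)
    have h2 : ∀ w : (P : Subgroup G), orderOf w = o → ψ w ^ p ^ k = 1 := fun w hw => by
      rw [← map_pow, ← hk, ho, ← hw, pow_orderOf_eq_one, map_one]
    have h3 : (ψ ⟨_, h⟩ / ψ x) ^ (P : Subgroup G).index = 1 := by rw [div_pow, h1, div_self']
    have h4 : (ψ ⟨_, h⟩ / ψ x) ^ p ^ k = 1 := by rw [div_pow, h2 _ hz, h2 _ ho, div_self']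
    exact div_eq_one.mp (orderOf_eq_one_iff.mp (Nat.eq_one_of_dvd_coprimes hco
      (orderOf_dvd_of_pow_eq_one h4) (orderOf_dvd_of_pow_eq_one h3)))

omit A φ in
/-- **Hall–Wielandt**: if the class of `P` is less than `p`, then `O^p(G) ∩ N(P) = O^p(N(P))`. -/
theorem subgroupOf_pResidual_of_class_lt (P : Sylow p G)
    (hcl : (P : Subgroup G).lowerCentralSeries (p - 1) = ⊥) :
    (Cfsg.pResidual p G).subgroupOf (normalizer ((P : Subgroup G) : Set G)) =
      Cfsg.pResidual p (normalizer ((P : Subgroup G) : Set G)) := by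
  refine subgroupOf_pResidual_eq_of_focal_le P le_normalizer ?_
  set N := normalizer ((P : Subgroup G) : Set G)
  let π : (P : Subgroup G) →* Abelianization N :=
    Abelianization.of.comp (Subgroup.inclusion le_normalizer)
  have hinv : ∀ n ∈ N, ∀ x : (P : Subgroup G), ∀ h : n⁻¹ * (x : G) * n ∈ (P : Subgroup G),
      π ⟨_, h⟩ = π x := fun n hn x h => by
    change Abelianization.of ((⟨n, hn⟩ : N)⁻¹ * Subgroup.inclusion le_normalizer x * ⟨n, hn⟩) = _
    rw [map_mul, map_mul, map_inv, mul_comm (_⁻¹ : Abelianization N), inv_mul_cancel_right]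
    rfl
  rw [focalSubgroup_def, closure_le]
  rintro z ⟨hz, x, hx, u, rfl⟩
  have hzc : u⁻¹⁻¹ * (⟨x, hx⟩ : (P : Subgroup G))⁻¹ * u⁻¹ ∈ (P : Subgroup G) := by
    have := mul_mem (inv_mem hx) hz
    rw [commutatorElement_def] at this
    convert this using 1
    simp [mul_assoc]
  have h1 := invariant_of_class_lt P hcl π hinv (⟨x, hx⟩⁻¹ : (P : Subgroup G)) u⁻¹ hzc
  have h2 : π ⟨⁅x, u⁆, hz⟩ = 1 := by
    have : (⟨⁅x, u⁆, hz⟩ : (P : Subgroup G)) = ⟨x, hx⟩ * ⟨_, hzc⟩ :=
      Subtype.ext (by simp [commutatorElement_def, mul_assoc])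
    rw [this, map_mul, h1, map_inv, mul_inv_cancel]
  rw [← map_subtype_commutator]
  exact ⟨_, (QuotientGroup.eq_one_iff _).mp h2, rfl⟩

end CfsgLib.Transfer
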