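/-
Wielandt's generalisation of the Hall–Wielandt theorem: a weakly closed subgroup satisfying an Engel condition.
-/
import Cfsg.Agent.Lib.Transfer.HallWielandt
import Cfsg.Prelude.Def_Transfer

set_option autoImplicit false

namespace CfsgLib.Transfer

open Subgroup Finset
open scoped commutatorElement Pointwise fwdDiff

variable {G : Type*} [Group G] {A : Type*} [CommGroup A] (H : Subgroup G) (φ : H →* A)
variable [Finite G] {p : ℕ} [hp : Fact p.Prime]

/-- The contribution of one nontrivial orbit is a power, for class less than `p`. -/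
theorem part_orbit_eq_pow' [DecidableEq (G ⧸ H)] (hH : IsPGroup p H)
    {M : Subgroup H}
    {X : Finset (G ⧸ H)} (hX : ∀ m ∈ M, ∀ q ∈ X, (m : G) • q ∈ X) {x : H}
    (hsmall : ∀ w : H, orderOf w < orderOf x → ∀ (m : ℕ) (g : G) (h : g⁻¹ * (w : G) ^ m * g ∈ H),
      φ ⟨_, h⟩ = φ w ^ m)
    {y : H} (hyx : x ∉ M → y = x)
    (hcl : x ∈ M → ∀ u : H, (fun t : G => t⁻¹ * (y : G)⁻¹ * t * (y : G))^[p - 1] (u : G) = 1)
    (hyn : ∀ (i : ℕ), ∀ d ∈ M, (y ^ i)⁻¹ * d * y ^ i ∈ M) (hxpM : x ^ p ∈ M) :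
    ∏ i ∈ range p, part H φ (X.image (((y ^ i : H) : G) • ·)) x = φ x ^ (p * X.card) := by
  have hXi : ∀ m ∈ M, ∀ q ∈ X, (m : G)⁻¹ • q ∈ X := fun m hm q hq => by
    have := hX m⁻¹ (inv_mem hm) q hq
    simpa using this
  let c : M →* A := MonoidHom.mk' (fun m => part H φ X (m : H)) fun a b =>
    part_mul H φ _ (hXi a a.2)
  have hxp : orderOf (x ^ p) < orderOf x ∨ x = 1 := by
    rcases eq_or_ne x 1 with h | h
    · exact Or.inr h
    obtain ⟨k, hk⟩ := (IsPGroup.iff_orderOf.mp hH) x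
    rcases k with _ | k
    · exact absurd (orderOf_eq_one_iff.mp (hk.trans (pow_zero p))) h
    left
    rw [orderOf_pow_of_dvd hp.out.ne_zero (hk ▸ dvd_pow_self p k.succ_ne_zero), hk, pow_succ,
      Nat.mul_div_cancel _ hp.out.pos]
    exact lt_mul_of_one_lt_right (pow_pos hp.out.pos k) hp.out.one_lt
  -- `p`-th powers of conjugates of `x`
  have hpow : ∀ i : ℕ, part H φ X ((y ^ i)⁻¹ * x ^ p * y ^ i) = φ x ^ (p * X.card) := by
    intro i
    have hmem := hyn i (x ^ p) hxpM
    generalize y ^ i = z at hmem ⊢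
    rcases hxp with hlt | rfl
    · have ho : orderOf (z⁻¹ * x ^ p * z) < orderOf x := by
        rwa [show z⁻¹ * x ^ p * z = (MulAut.conj z⁻¹).toMonoidHom (x ^ p) by simp,
          orderOf_injective _ (MulEquiv.injective _)]
      rw [part_eq_pow H φ (isOfFinOrder_of_finite _) (hsmall _ ho) X
        (hXi _ hmem)]
      rw [map_mul, map_mul, map_inv, map_pow, mul_comm (φ z)⁻¹, inv_mul_cancel_right, ← pow_mul]
    · simp [part, cocycle_one]
  by_cases hxM : x ∈ M
  · let cx : ℕ → M := fun i => ⟨(y ^ i)⁻¹ * x * y ^ i, hyn i x hxM⟩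
    have hterm : ∀ i, part H φ (X.image (((y ^ i : H) : G) • ·)) x = c (cx i) := fun i =>
      part_smul H φ (hXi _ (cx i).2)
    simp only [hterm]
    -- forward differences of `i ↦ c (x ^ (y ^ i))`
    set f : ℕ → Additive A := fun i => Additive.ofMul (c (cx i)) with hf
    have hfp : p • f = fun _ => Additive.ofMul (φ x ^ (p * X.card)) := funext fun i => by
      rw [Pi.smul_apply, hf]
      change Additive.ofMul (c (cx i) ^ p) = _
      rw [← map_pow]
      congr 1
      change part H φ X (((y ^ i)⁻¹ * x * y ^ i) ^ p) = _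
      rw [show ((y ^ i)⁻¹ * x * y ^ i) ^ p = (y ^ i)⁻¹ * x ^ p * y ^ i by
        simpa using (conj_pow (a := (y ^ i)⁻¹) (b := x) (i := p))]
      exact hpow _
    have hd : ∀ k, ∃ d : H, (d : G) = (fun t : G => t⁻¹ * (y : G)⁻¹ * t * (y : G))^[k] (x : G) ∧ ∃ hdM : d ∈ M,
        ∀ i, Δ_[1]^[k] f i = Additive.ofMul (c ⟨(y ^ i)⁻¹ * d * y ^ i, hyn i d hdM⟩) := by
      intro k
      induction k with
      | zero => exact ⟨x, rfl, hxM, fun i => rfl⟩
      | succ k ih =>
        obtain ⟨d, hdL, hdM, hdf⟩ := ih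
        have hd'M : d⁻¹ * (y⁻¹ * d * y) ∈ M :=
          mul_mem (inv_mem hdM) (by simpa using hyn 1 d hdM)
        refine ⟨d⁻¹ * (y⁻¹ * d * y), ?_, hd'M, fun i => ?_⟩
        · rw [Function.iterate_succ_apply', ← hdL]
          simp [mul_assoc]
        · rw [Function.iterate_succ_apply', fwdDiff, hdf, hdf, sub_eq_add_neg, ← ofMul_inv,
            ← map_inv, ← ofMul_mul, ← map_mul]
          rw [map_mul, mul_comm, ← map_mul]
          congr 2
          refine Subtype.ext ?_
          change ((y ^ i)⁻¹ * d * y ^ i)⁻¹ * ((y ^ (i + 1))⁻¹ * d * y ^ (i + 1)) = _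
          rw [pow_succ']
          group
    have hlast : Δ_[1]^[p - 1] f 0 = 0 := by
      obtain ⟨d, hdL, hdM, hdf⟩ := hd (p - 1)
      rw [hcl hxM x] at hdL
      have : d = 1 := Subtype.ext hdL
      subst this
      rw [hdf, show (⟨_, _⟩ : M) = 1 from Subtype.ext (by simp : (y ^ 0)⁻¹ * (1 : H) * y ^ 0 = 1),
        map_one, ofMul_one]
    have hdiv : ∀ k ∈ range p, k ≠ 0 → p.choose (k + 1) • Δ_[1]^[k] f 0 = 0 := by
      intro k hk hk0
      have hk' := Finset.mem_range.mp hk
      rcases Nat.lt_or_ge (k + 1) p with hlt | hge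
      · obtain ⟨j, hj⟩ := Nat.Prime.dvd_choose_self hp.out (Nat.succ_ne_zero k) hlt
        obtain ⟨k, rfl⟩ := Nat.exists_eq_succ_of_ne_zero hk0
        have h0 : p • Δ_[1]^[k.succ] f 0 = 0 := by
          rw [show p • Δ_[1]^[k.succ] f 0 = (p • Δ_[1]^[k.succ] f) 0 from rfl,
            ← fwdDiff_iter_const_smul, hfp, Function.iterate_succ_apply, fwdDiff_const,
            Function.iterate_fixed (fwdDiff_const _ 0)]
        rw [hj, mul_comm, mul_nsmul', h0, smul_zero]
      · rw [show k = p - 1 by omega, hlast, smul_zero]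
    have hsum := sum_range_eq_sum_choose_fwdDiff f p
    rw [Finset.sum_eq_single_of_mem 0 (Finset.mem_range.mpr hp.out.pos) hdiv] at hsum
    rw [zero_add, Nat.choose_one_right, Function.iterate_zero, id] at hsum
    rw [show p • f 0 = (p • f) 0 from rfl, hfp, ← ofMul_prod] at hsum
    exact Additive.ofMul.injective hsum
  · have hyx' := hyx hxM
    subst hyx'
    have hY : ∀ i, part H φ (X.image (((y ^ i : H) : G) • ·)) y =
        ∏ q ∈ X, cocycle H φ (((y ^ i : H) : G) • q) y := fun i =>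
      Finset.prod_image fun a _ b _ h => MulAction.injective _ h
    simp only [hY]
    rw [Finset.prod_comm]
    have h1 : ∀ q, ∏ i ∈ range p, cocycle H φ (((y ^ i : H) : G) • q) y =
        cocycle H φ (((y ^ (p - 1) : H) : G) • q) (y ^ p) := by
      intro q
      rw [cocycle_pow, ← Finset.prod_range_reflect]
      refine Finset.prod_congr rfl fun i hi => ?_
      have hi' := Finset.mem_range.mp hi
      rw [← mul_smul, Subgroup.coe_pow, Subgroup.coe_pow]
      congr 2
      rw [eq_inv_mul_iff_mul_eq, ← pow_add]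
      congr 1
      omega
    simp only [h1]
    calc ∏ q ∈ X, cocycle H φ (((y ^ (p - 1) : H) : G) • q) (y ^ p)
        = part H φ (X.image (((y ^ (p - 1) : H) : G) • ·)) (y ^ p) :=
          by rw [part, Finset.prod_image fun a _ b _ h => MulAction.injective _ h]
      _ = _ := by
          rw [part_smul H φ (hXi _ ?_), hpow]
          exact hyn (p - 1) _ hxpM

omit hp in
/-- A set of cosets fixed by `w` whose representatives preserve the values of `φ`. -/
theorem part_eq_pow_local [DecidableEq (G ⧸ H)] {w : H} (X : Finset (G ⧸ H))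
    (hinv : ∀ q ∈ X, ∀ (m : ℕ) (h : q.out⁻¹ * (w : G) ^ m * q.out ∈ H), φ ⟨_, h⟩ = φ w ^ m)
    (hX : ∀ q ∈ X, (w : G)⁻¹ • q ∈ X) :
    part H φ X w = φ w ^ X.card := by
  induction X using Finset.strongInduction with
  | H X ih =>
    rcases X.eq_empty_or_nonempty with rfl | ⟨q, hq⟩
    · simp [part]
    set u := (w : G)⁻¹
    set n := Function.minimalPeriod (u • ·) q with hn
    have hper : q ∈ Function.periodicPts (u • · : G ⧸ H → G ⧸ H) :=
      ⟨orderOf u, (isOfFinOrder_of_finite u).orderOf_pos, by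
        show (u • ·)^[orderOf u] q = q
        rw [smul_iterate]; simp [pow_orderOf_eq_one]⟩
    have hnpos : 0 < n := Function.minimalPeriod_pos_of_mem_periodicPts hper
    set C := (range n).image (fun i => u ^ i • q) with hC
    have hinj : Set.InjOn (fun i => u ^ i • q) (range n : Set ℕ) := by
      intro i hi j hj hij
      simp only [Finset.coe_range, Set.mem_Iio] at hi hj
      refine Function.iterate_injOn_Iio_minimalPeriod hi hj ?_
      simpa [smul_iterate] using hij
    have hmem : ∀ i, u ^ i • q ∈ X := fun i => by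
      induction i with
      | zero => simpa using hq
      | succ i hi => rw [pow_succ', mul_smul]; exact hX _ hi
    have hCX : C ⊆ X := Finset.image_subset_iff.mpr fun i _ => hmem i
    have hfix : u ^ n • q = q := by
      rw [← MulAction.pow_smul_mod_minimalPeriod, ← hn, Nat.mod_self, pow_zero, one_smul]
    have hClosed : ∀ r ∈ X \ C, u • r ∈ X \ C := by
      intro r hr
      rw [Finset.mem_sdiff] at hr ⊢
      refine ⟨hX _ hr.1, fun hc => hr.2 ?_⟩
      obtain ⟨i, hi, hir⟩ := Finset.mem_image.mp hc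
      have hi' := Finset.mem_range.mp hi
      refine Finset.mem_image.mpr ⟨(i + (n - 1)) % n, Finset.mem_range.mpr (Nat.mod_lt _ hnpos), ?_⟩
      apply MulAction.injective u
      change u • u ^ ((i + (n - 1)) % n) • q = u • r
      rw [← hir, ← mul_smul, ← pow_succ']
      have h3 : ∀ k, u ^ k • q = u ^ (k % n) • q := fun k => (MulAction.pow_smul_mod_minimalPeriod u q k).symm
      rw [h3, h3 i]
      congr 2
      rw [Nat.mod_add_mod]
      rw [show i + (n - 1) + 1 = i + n by omega, Nat.add_mod_right]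
    have hq' : q ∈ C := Finset.mem_image.mpr ⟨0, Finset.mem_range.mpr hnpos, by simp⟩
    have hlt : X \ C ⊂ X := Finset.sdiff_ssubset hCX ⟨q, hq'⟩
    have hCp : part H φ C w = φ w ^ n := by
      rw [part, hC, Finset.prod_image hinj]
      have h1 : ∏ i ∈ range n, cocycle H φ (u ^ i • q) w = cocycle H φ q (w ^ n) := by
        rw [cocycle_pow]; simp only [u, inv_pow]
      rw [h1, cocycle]
      have h2 : ((w ^ n : H) : G)⁻¹ • q = q := by
        simpa only [Subgroup.coe_pow, inv_pow, u] using hfix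
      have h3 : q.out⁻¹ * (w : G) ^ n * q.out ∈ H := by
        have := out_mem H (w ^ n) q
        rwa [h2, Subgroup.coe_pow] at this
      rw [← hinv q hq n h3]
      congr 1
      refine Subtype.ext ?_
      change q.out⁻¹ * ((w ^ n : H) : G) * (((w ^ n : H) : G)⁻¹ • q).out = _
      rw [h2, Subgroup.coe_pow]
    calc part H φ X w = part H φ (X \ C) w * part H φ C w := (Finset.prod_sdiff hCX).symm
      _ = φ w ^ ((X \ C).card + C.card) := by
        rw [ih _ hlt (fun r hr => hinv r (Finset.mem_sdiff.mp hr).1) hClosed, hCp, pow_add, hC, Finset.card_image_of_injOn hinj, Finset.card_range]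
      _ = φ w ^ X.card := by rw [Finset.card_sdiff_add_card_eq_card hCX]

/-- Every stable set contributes a power, for a weakly closed subgroup with the Engel condition. -/
theorem part_eq_pow_of_weaklyClosed [DecidableEq (G ⧸ H)] (hH : IsPGroup p H) {Q : Subgroup G}
    (hQ : Cfsg.IsWeaklyClosed Q H)
    (hcl : ∀ u ∈ H, ∀ z ∈ Q, (fun t : G => t⁻¹ * z⁻¹ * t * z)^[p - 1] u = 1)
    (hN : ∀ n ∈ normalizer (Q : Set G), ∀ x : H, ∀ h : n⁻¹ * (x : G) * n ∈ H, φ ⟨_, h⟩ = φ x)
    (x : H) (hsmall : ∀ w : H, orderOf w < orderOf x → ∀ (m : ℕ) (g : G)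
      (h : g⁻¹ * (w : G) ^ m * g ∈ H), φ ⟨_, h⟩ = φ w ^ m)
    (X : Finset (G ⧸ H)) (hX : ∀ m : H, ∀ q ∈ X, (m : G) • q ∈ X) :
    part H φ X x = φ x ^ X.card := by
  classical
  haveI : Fintype H := Fintype.ofFinite H
  have hQH : Q ≤ H := hQ.1
  set Q' := Q.subgroupOf H with hQ'
  set R := Subgroup.zpowers x ⊔ Q' with hR
  have hxR : x ∈ R := Subgroup.mem_sup_left (Subgroup.mem_zpowers x)
  suffices key : ∀ Y : Finset (G ⧸ H), (∀ m ∈ R, ∀ q ∈ Y, (m : G) • q ∈ Y) → part H φ Y x = φ x ^ Y.card from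
    key X fun m _ => hX m
  intro Y
  induction Y using Finset.strongInduction with
  | H Y ih =>
    intro hY
    rcases Y.eq_empty_or_nonempty with rfl | ⟨q, hq⟩
    · simp [part]
    set O := ((Finset.univ : Finset H).filter (· ∈ R)).image (fun m : H => (m : G) • q) with hO
    have hqO : q ∈ O := Finset.mem_image.mpr ⟨1, Finset.mem_filter.mpr ⟨Finset.mem_univ _, one_mem R⟩, by simp⟩
    have hOY : O ⊆ Y := Finset.image_subset_iff.mpr fun m hm => hY m (Finset.mem_filter.mp hm).2 q hq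
    have hrest : ∀ m ∈ R, ∀ r ∈ Y \ O, (m : G) • r ∈ Y \ O := by
      intro m hm r hr
      rw [Finset.mem_sdiff] at hr ⊢
      refine ⟨hY m hm r hr.1, fun hc => hr.2 ?_⟩
      obtain ⟨k, hk, hke⟩ := Finset.mem_image.mp hc
      refine Finset.mem_image.mpr ⟨m⁻¹ * k, Finset.mem_filter.mpr ⟨Finset.mem_univ _,
        mul_mem (inv_mem hm) (Finset.mem_filter.mp hk).2⟩, ?_⟩
      rw [Subgroup.coe_mul, mul_smul, hke, Subgroup.coe_inv, inv_smul_smul]
    suffices hOp : part H φ O x = φ x ^ O.card by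
      calc part H φ Y x = part H φ (Y \ O) x * part H φ O x := (Finset.prod_sdiff hOY).symm
        _ = φ x ^ Y.card := by
          rw [ih _ (Finset.sdiff_ssubset hOY ⟨q, hqO⟩) hrest, hOp, ← pow_add,
            Finset.card_sdiff_add_card_eq_card hOY]
    have hOst : ∀ m ∈ R, ∀ r ∈ O, (m : G) • r ∈ O := by
      intro m hm r hr
      obtain ⟨k, hk, rfl⟩ := Finset.mem_image.mp hr
      refine Finset.mem_image.mpr ⟨m * k, Finset.mem_filter.mpr ⟨Finset.mem_univ _,
        mul_mem hm (Finset.mem_filter.mp hk).2⟩, ?_⟩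
      rw [Subgroup.coe_mul, mul_smul]
    let S : Subgroup R := (MulAction.stabilizer G q).comap (H.subtype.comp R.subtype)
    by_cases hQq : ∀ z : H, z ∈ Q' → (z : G) • q = q
    · -- the subgroup fixes every coset of the orbit
      refine part_eq_pow_local H φ O (fun r hr m h => ?_) fun r hr => by
        simpa using hOst x⁻¹ (inv_mem hxR) r hr
      have hrfix : ∀ z : H, z ∈ Q' → (z : G) • r = r := by
        obtain ⟨k, hk, rfl⟩ := Finset.mem_image.mp hr
        have hQn : ∀ k : H, ∀ z : H, z ∈ Q' → k⁻¹ * z * k ∈ Q' := by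
          intro k z hz
          have hle : Q.map (MulAut.conj (k : G)⁻¹).toMonoidHom ≤ H := by
            rintro _ ⟨a, ha, rfl⟩
            simpa using mul_mem (mul_mem (inv_mem k.2) (hQH ha)) k.2
          show ((k⁻¹ * z * k : H) : G) ∈ Q
          rw [← hQ.2 _ hle]
          exact ⟨z, hz, by simp⟩
        intro z hz
        have h1 := hQq _ (hQn k z hz)
        rw [← mul_smul, show (z : G) * (k : G) = (k : G) * ((k⁻¹ * z * k : H) : G) by simp [mul_assoc],
          mul_smul, h1]
      have hn : r.out ∈ normalizer (Q : Set G) := by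
        have hle : Q.map (MulAut.conj r.out⁻¹).toMonoidHom ≤ H := by
          rintro _ ⟨a, ha, rfl⟩
          have h1 := out_mem' H a r
          rw [show a⁻¹ • r = r by
            have := hrfix (⟨a, hQH ha⟩ : H)⁻¹ (inv_mem (show (⟨a, hQH ha⟩ : H) ∈ Q' from ha))
            simpa using this] at h1
          simpa using h1
        have he := hQ.2 _ hle
        refine inv_mem_iff.mp (Subgroup.mem_normalizer_iff.mpr fun z => ?_)
        exact ⟨fun hz => he.le ⟨z, hz, rfl⟩,
          fun hz => (mem_map_iff_mem (MulAut.conj r.out⁻¹).injective).mp (he.ge hz)⟩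
      rw [← map_pow]
      exact hN r.out hn (x ^ m) (by simpa using h)
    push Not at hQq
    obtain ⟨z₀, hz₀, hz₀q⟩ := hQq
    have hS : S ≠ ⊤ := fun e => hz₀q
      (show (⟨z₀, Subgroup.mem_sup_right hz₀⟩ : R) ∈ S from e ▸ Subgroup.mem_top _)
    obtain ⟨M₀, hSM, hMn, hMi, -⟩ := PGroups.exists_le_index_prime (hH.to_subgroup R) hS
    set M := M₀.map R.subtype with hM
    have hMR : M ≤ R := Subgroup.map_subtype_le _
    have hMmem : ∀ u : R, (u : H) ∈ M ↔ u ∈ M₀ := fun u => mem_map_iff_mem R.subtype_injective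
    obtain ⟨y, hyR, hy, hyx, hyQ⟩ : ∃ y : H, ∃ hyR : y ∈ R, (⟨y, hyR⟩ : R) ∉ M₀ ∧ (x ∉ M → y = x) ∧
        (x ∈ M → y ∈ Q') := by
      by_cases hx : x ∈ M
      · by_contra! hall
        apply hp.out.ne_one
        rw [← hMi, index_eq_one, eq_top_iff]
        intro u _
        rw [← hMmem]
        have hRM : R ≤ M := sup_le (Subgroup.zpowers_le.mpr hx) fun z hz => by
          by_contra hzM
          exact (hall z (Subgroup.mem_sup_right hz)
            (fun h => hzM ((hMmem ⟨z, Subgroup.mem_sup_right hz⟩).mpr h)) (fun h => absurd hx h)).2 hz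
        exact hRM u.2
      · exact ⟨x, hxR, fun h => hx ((hMmem ⟨x, hxR⟩).mpr h), fun _ => rfl, fun h => absurd h hx⟩
    set X₀ := ((Finset.univ : Finset H).filter (· ∈ M)).image (fun m : H => (m : G) • q) with hX₀
    have hX₀s : ∀ m ∈ M, ∀ r ∈ X₀, (m : G) • r ∈ X₀ := by
      intro m hm r hr
      obtain ⟨k, hk, rfl⟩ := Finset.mem_image.mp hr
      refine Finset.mem_image.mpr ⟨m * k, Finset.mem_filter.mpr ⟨Finset.mem_univ _,
        mul_mem hm (Finset.mem_filter.mp hk).2⟩, ?_⟩
      rw [Subgroup.coe_mul, mul_smul]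
    set y₀ : R := ⟨y, hyR⟩ with hy₀
    have hyne : (y₀ : R ⧸ M₀) ≠ 1 := fun e => hy ((QuotientGroup.eq_one_iff y₀).mp e)
    have hcard' : Nat.card (R ⧸ M₀) = p := hMi
    have hgen : ∀ u ∈ R, ∃ i < p, (y ^ i)⁻¹ * u ∈ M := by
      intro u hu
      have hmem : ((⟨u, hu⟩ : R) : R ⧸ M₀) ∈ zpowers (y₀ : R ⧸ M₀) := mem_zpowers_of_prime_card hcard' hyne
      obtain ⟨i, hi⟩ := (isOfFinOrder_of_finite _).mem_powers_iff_mem_zpowers.mpr hmem
      refine ⟨i % p, Nat.mod_lt _ hp.out.pos, ?_⟩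
      simp only at hi
      have h1 : ((y₀ ^ (i % p) : R) : R ⧸ M₀) = ((⟨u, hu⟩ : R) : R ⧸ M₀) := by
        rw [QuotientGroup.mk_pow, ← hi]
        conv_rhs => rw [← pow_mod_natCard, hcard']
      exact (hMmem _).mpr (QuotientGroup.eq.mp h1)
    have hdisj : ∀ i < p, ∀ j < p, ∀ r ∈ X₀, ∀ r' ∈ X₀,
        ((y ^ i : H) : G) • r = ((y ^ j : H) : G) • r' → i = j := by
      intro i hi j hj r hr r' hr' he
      obtain ⟨k, hk, rfl⟩ := Finset.mem_image.mp hr
      obtain ⟨k', hk', rfl⟩ := Finset.mem_image.mp hr'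
      rw [← mul_smul, ← mul_smul, ← Subgroup.coe_mul, ← Subgroup.coe_mul, smul_eq_iff_eq_inv_smul,
        ← mul_smul, ← Subgroup.coe_inv, ← Subgroup.coe_mul] at he
      have hkM := (Finset.mem_filter.mp hk).2
      have hkM' := (Finset.mem_filter.mp hk').2
      set k₀ : R := ⟨k, hMR hkM⟩
      set k₀' : R := ⟨k', hMR hkM'⟩
      have hmem : (y₀ ^ i * k₀)⁻¹ * (y₀ ^ j * k₀') ∈ M₀ := hSM he.symm
      rw [mul_inv_rev, mul_assoc, M₀.mul_mem_cancel_left (inv_mem ((hMmem k₀).mp hkM)), ← mul_assoc,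
        M₀.mul_mem_cancel_right ((hMmem k₀').mp hkM')] at hmem
      have h2 : (y₀ : R ⧸ M₀) ^ i = (y₀ : R ⧸ M₀) ^ j := QuotientGroup.eq.mpr hmem
      have ho : orderOf (y₀ : R ⧸ M₀) = p :=
        orderOf_eq_prime (by rw [← hcard']; exact pow_card_eq_one') hyne
      exact pow_injOn_Iio_orderOf (by rwa [ho]) (by rwa [ho]) h2
    have hunion : O = (range p).biUnion (fun i => X₀.image (((y ^ i : H) : G) • ·)) := by
      ext r
      simp only [Finset.mem_biUnion, Finset.mem_image, hO, hX₀, Finset.mem_filter, Finset.mem_univ,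
        true_and, Finset.mem_range]
      constructor
      · rintro ⟨u, hu, rfl⟩
        obtain ⟨i, hi, him⟩ := hgen u hu
        refine ⟨i, hi, _, ⟨_, him, rfl⟩, ?_⟩
        rw [← mul_smul, ← Subgroup.coe_mul, mul_inv_cancel_left]
      · rintro ⟨i, -, _, ⟨m, hm, rfl⟩, rfl⟩
        exact ⟨y ^ i * m, mul_mem (pow_mem hyR i) (hMR hm), by rw [Subgroup.coe_mul, mul_smul]⟩
    have hpd : (range p : Set ℕ).PairwiseDisjoint (fun i => X₀.image (((y ^ i : H) : G) • ·)) := by
      intro i hi j hj hij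
      simp only [Function.onFun, Finset.disjoint_left]
      intro r hr hr'
      obtain ⟨a, ha, rfl⟩ := Finset.mem_image.mp hr
      obtain ⟨b, hb, hbe⟩ := Finset.mem_image.mp hr'
      exact hij (hdisj i (Finset.mem_range.mp hi) j (Finset.mem_range.mp hj) a ha b hb hbe.symm)
    have hcard : O.card = p * X₀.card := by
      rw [hunion, Finset.card_biUnion hpd]
      simp [Finset.card_image_of_injective _ (MulAction.injective _)]
    rw [hcard, part, hunion, Finset.prod_biUnion hpd]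
    refine part_orbit_eq_pow' H φ hH hX₀s hsmall hyx (fun hx u => ?_) (fun i d hd => ?_) ?_
    · exact hcl u u.2 y (hyQ hx)
    · have := hMn.conj_mem ⟨d, hMR hd⟩ ((hMmem _).mp hd) (y₀ ^ i)⁻¹
      rw [inv_inv] at this
      exact (hMmem ((y₀ ^ i)⁻¹ * ⟨d, hMR hd⟩ * y₀ ^ i)).mpr this
    · have : (⟨x, hxR⟩ : R) ^ p ∈ M₀ := hMi ▸ pow_index_mem M₀ _
      exact (hMmem _).mpr this

omit A φ in
/-- **Wielandt**: `O^p(G) ∩ N(Q) = O^p(N(Q))`. -/
theorem subgroupOf_pResidual_of_weaklyClosed (P : Sylow p G) {Q : Subgroup G}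
    (hQ : Cfsg.IsWeaklyClosed Q (P : Subgroup G))
    (hcl : ∀ u ∈ (P : Subgroup G), ∀ z ∈ Q, (fun t : G => t⁻¹ * z⁻¹ * t * z)^[p - 1] u = 1) :
    (Cfsg.pResidual p G).subgroupOf (normalizer (Q : Set G)) =
      Cfsg.pResidual p (normalizer (Q : Set G)) := by
  classical
  haveI : Fintype (G ⧸ (P : Subgroup G)) := Fintype.ofFinite _
  have hPN : (P : Subgroup G) ≤ normalizer (Q : Set G) := by
    intro k hk
    have hle : Q.map (MulAut.conj k).toMonoidHom ≤ (P : Subgroup G) := by
      rintro _ ⟨a, ha, rfl⟩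
      exact mul_mem (mul_mem hk (hQ.1 ha)) (inv_mem hk)
    have he := hQ.2 _ hle
    exact Subgroup.mem_normalizer_iff.mpr fun z => ⟨fun hz => he.le ⟨z, hz, rfl⟩,
      fun hz => (mem_map_iff_mem (MulAut.conj k).injective).mp (he.ge hz)⟩
  refine subgroupOf_pResidual_eq_of_focal_le P hPN ?_
  set N := normalizer (Q : Set G) with hNdef
  let π : (P : Subgroup G) →* Abelianization N :=
    Abelianization.of.comp (Subgroup.inclusion hPN)
  have hinv : ∀ n ∈ N, ∀ x : (P : Subgroup G), ∀ h : n⁻¹ * (x : G) * n ∈ (P : Subgroup G),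
      π ⟨_, h⟩ = π x := fun n hn x h => by
    change Abelianization.of ((⟨n, hn⟩ : N)⁻¹ * Subgroup.inclusion hPN x * ⟨n, hn⟩) = _
    rw [map_mul, map_mul, map_inv, mul_comm (_⁻¹ : Abelianization N), inv_mul_cancel_right]
    rfl
  have hall : ∀ (x : (P : Subgroup G)) (g : G) (h : g⁻¹ * (x : G) * g ∈ (P : Subgroup G)),
      π ⟨_, h⟩ = π x := by
    intro x
    induction ho : orderOf x using Nat.strong_induction_on generalizing x with
    | _ o ih =>
      have hsmall : ∀ w : (P : Subgroup G), orderOf w < o → ∀ (m : ℕ) (g : G)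
          (h : g⁻¹ * (w : G) ^ m * g ∈ (P : Subgroup G)), π ⟨_, h⟩ = π w ^ m := fun w hw m g h => by
        rw [← map_pow]
        have hle : orderOf (w ^ m) < o :=
          lt_of_le_of_lt (Nat.le_of_dvd (orderOf_pos w) (orderOf_pow_dvd m)) hw
        exact ih _ hle (w ^ m) rfl g (by simpa using h)
      have hV : ∀ w : (P : Subgroup G), orderOf w = o →
          total (P : Subgroup G) π (w : G) = π w ^ (P : Subgroup G).index := fun w hw => by
        rw [index_eq_card, Nat.card_eq_fintype_card, ← Finset.card_univ,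
          ← part_eq_pow_of_weaklyClosed (P : Subgroup G) π P.2 hQ hcl hinv w (hw ▸ hsmall) Finset.univ
            fun _ _ _ => Finset.mem_univ _]
        rfl
      intro g h
      have hz : orderOf (⟨g⁻¹ * (x : G) * g, h⟩ : (P : Subgroup G)) = o := by
        rw [orderOf_mk, show g⁻¹ * (x : G) * g = (MulAut.conj g⁻¹).toMonoidHom (x : G) by simp,
          orderOf_injective _ (MulEquiv.injective _), orderOf_coe, ho]
      have h1 : π ⟨_, h⟩ ^ (P : Subgroup G).index = π x ^ (P : Subgroup G).index := by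
        rw [← hV x ho, ← hV _ hz, map_mul, map_mul, map_inv, mul_comm (_⁻¹ : Abelianization N),
          inv_mul_cancel_right]
      obtain ⟨k, hk⟩ := (IsPGroup.iff_orderOf.mp P.2) x
      have hco : Nat.Coprime (p ^ k) (P : Subgroup G).index :=
        Nat.Coprime.pow_left k (hp.out.coprime_iff_not_dvd.mpr P.not_dvd_index)
      have h2 : ∀ w : (P : Subgroup G), orderOf w = o → π w ^ p ^ k = 1 := fun w hw => by
        rw [← map_pow, ← hk, ho, ← hw, pow_orderOf_eq_one, map_one]
      have h3 : (π ⟨_, h⟩ / π x) ^ (P : Subgroup G).index = 1 := by rw [div_pow, h1, div_self']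
      have h4 : (π ⟨_, h⟩ / π x) ^ p ^ k = 1 := by rw [div_pow, h2 _ hz, h2 _ ho, div_self']
      exact div_eq_one.mp (orderOf_eq_one_iff.mp (Nat.eq_one_of_dvd_coprimes hco
        (orderOf_dvd_of_pow_eq_one h4) (orderOf_dvd_of_pow_eq_one h3)))
  rw [focalSubgroup_def, closure_le]
  rintro z ⟨hz, x, hx, u, rfl⟩
  have hzc : u⁻¹⁻¹ * (⟨x, hx⟩ : (P : Subgroup G))⁻¹ * u⁻¹ ∈ (P : Subgroup G) := by
    have := mul_mem (inv_mem hx) hz
    rw [commutatorElement_def] at this
    convert this using 1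
    simp [mul_assoc]
  have h1 := hall (⟨x, hx⟩⁻¹ : (P : Subgroup G)) u⁻¹ hzc
  have h2 : π ⟨⁅x, u⁆, hz⟩ = 1 := by
    have : (⟨⁅x, u⁆, hz⟩ : (P : Subgroup G)) = ⟨x, hx⟩ * ⟨_, hzc⟩ :=
      Subtype.ext (by simp [commutatorElement_def, mul_assoc])
    rw [this, map_mul, h1, map_inv, mul_inv_cancel]
  rw [← map_subtype_commutator]
  exact ⟨_, (QuotientGroup.eq_one_iff _).mp h2, rfl⟩

end CfsgLib.Transfer
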